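/- Spec of S3776 (Suzuki 2-groups with a solvable transitive automorphism group); see
blueprints/SZSOL.md. -/
import Cfsg.Agent.H69.Higman3

set_option autoImplicit false

universe u v

namespace H2.Sz

variable {P : Type u} [Group P]

/-- `P` is a 2-group with at least two involutions, permuted transitively by the odd order
solvable group `Y` of automorphisms. -/
structure SzY (Y : Subgroup (MulAut P)) : Prop where
  two : IsPGroup 2 P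
  trans : ∀ x y : P, x ≠ 1 → x * x = 1 → y ≠ 1 → y * y = 1 → ∃ a ∈ Y, a x = y
  many : ∃ x y : P, x ≠ y ∧ x ≠ 1 ∧ x * x = 1 ∧ y ≠ 1 ∧ y * y = 1
  odd : Odd (Nat.card Y)
  solv : Group.IsSolvable Y

/-- `X` is `Y`-invariant. -/
def Inv (Y : Subgroup (MulAut P)) (X : Subgroup P) : Prop := ∀ a ∈ Y, ∀ x ∈ X, a x ∈ X

/-- No `Y`-invariant subgroup lies strictly between `A` and `C`. -/
def Irr (Y : Subgroup (MulAut P)) (A C : Subgroup P) : Prop :=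
  ∀ W : Subgroup P, Inv Y W → A ≤ W → W ≤ C → W = A ∨ W = C

/-- The pairing property: an equivariant pairing `T × C/A → T` (`T` the involutions with `1`,
reached from `X` by `g`) vanishes, or has no zero divisors and `φ(·, u)` fixes at most one
involution. -/
def Pair (Y : Subgroup (MulAut P)) : Prop :=
  ∀ (X A C : Subgroup P) (g : P → P) (φ : P → P → P), Inv Y X → Inv Y A → Inv Y C → A ≤ C →
    Irr Y A C →
    (∀ a ∈ X, g a * g a = 1) → (∀ a ∈ X, ∀ b ∈ X, g (a * b) = g a * g b) →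
    (∀ t : P, t * t = 1 → ∃ a ∈ X, g a = t) → (∀ y ∈ Y, ∀ a ∈ X, g (y a) = y (g a)) →
    (∀ a ∈ X, ∀ u ∈ C, φ a u * φ a u = 1) →
    (∀ a ∈ X, ∀ b ∈ X, ∀ u ∈ C, φ (a * b) u = φ a u * φ b u) →
    (∀ a ∈ X, ∀ u ∈ C, ∀ w ∈ C, φ a (u * w) = φ a u * φ a w) →
    (∀ a ∈ X, ∀ u ∈ C, g a = 1 → φ a u = 1) → (∀ a ∈ X, ∀ u ∈ A, φ a u = 1) →
    (∀ y ∈ Y, ∀ a ∈ X, ∀ u ∈ C, φ (y a) (y u) = y (φ a u)) →
    (∀ a ∈ X, ∀ u ∈ C, φ a u = 1) ∨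
      ((∀ a ∈ X, ∀ u ∈ C, φ a u = 1 → g a = 1 ∨ u ∈ A) ∧
        ∀ u ∈ C, ∀ a ∈ X, ∀ b ∈ X, g a ≠ 1 → g b ≠ 1 → φ a u = g a → φ b u = g b → g a = g b)

/-- Arithmetic of sums of two powers of two modulo `(2^n - 1)/d`. -/
def JobA : Prop := ∀ n d a c e : ℕ, 2 ≤ n → d ∣ n → d ∣ 2 ^ n - 1 → a < n → c < n → e < n →
  (2 ^ a + 2 ^ c) * d ≡ (1 + 2 ^ e) * d [MOD 2 ^ n - 1] → (a + c) % n = e

/-- The field form of the pairing lemma. -/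
def JobB : Prop := ∀ (F : Type) [Field F] [Fintype F] [CharP F 2] (G : Type u) [Group G]
  (Y : Type u) [Group Y] [Finite Y] (ψ : Y →* MulAut G) (act : Y →* Equiv.Perm F)
  (A C : Subgroup G) (B : G → F →+ F), 2 < Fintype.card F →
  (∀ y, ∃ (a : F) (σ : F ≃+* F), ∀ x, act y x = a * σ x) →
  (∀ x x' : F, x ≠ 0 → x' ≠ 0 → ∃ y, act y x = x') →
  A ≤ C → (∀ y, ∀ w ∈ C, ψ y w ∈ C) →
  (∀ W : Subgroup G, (∀ y, ∀ w ∈ W, ψ y w ∈ W) → A ≤ W → W ≤ C → W = A ∨ W = C) →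
  (∀ u ∈ C, ∀ w ∈ C, B (u * w) = B u + B w) → (∀ u ∈ A, B u = 0) →
  (∀ y, ∀ u ∈ C, ∀ x, B (ψ y u) (act y x) = act y (B u x)) →
  (∀ u ∈ C, B u = 0) ∨
    ((∀ u ∈ C, ∀ x, x ≠ 0 → B u x = 0 → u ∈ A) ∧
      ((∀ y, (∀ u ∈ C, u⁻¹ * ψ y u ∈ A) → ∃ x, x ≠ 0 ∧ act y x = x) →
        ∀ u ∈ C, ∀ x x', x ≠ 0 → x' ≠ 0 → B u x = x → B u x' = x' → x = x'))

/-- The pairing property holds. -/
def JobD : Prop := ∀ (P : Type u) [Group P] [Finite P] (Y : Subgroup (MulAut P)), SzY Y → Pair Y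

/-- Higman's theorem from the pairing property. -/
def JobC : Prop := ∀ (P : Type u) [Group P] [Finite P] (Y : Subgroup (MulAut P)), SzY Y → Pair Y →
  (∃ x y : P, x * y ≠ y * x) →
  (∀ x : P, x * x * (x * x) = 1) ∧ ∀ x y : P, H69.cm x y * H69.cm x y = 1

/-- Reduction to odd order. -/
def JobE : Prop := ∀ (P : Type u) [Group P] [Finite P], IsPGroup 2 P →
  (∃ x y : P, x ≠ y ∧ x ≠ 1 ∧ x ^ 2 = 1 ∧ y ≠ 1 ∧ y ^ 2 = 1) →
  (∃ Y : Subgroup (MulAut P), Group.IsSolvable Y ∧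
    ∀ x y : P, x ≠ 1 → x ^ 2 = 1 → y ≠ 1 → y ^ 2 = 1 → ∃ a ∈ Y, a x = y) →
  ∃ Y : Subgroup (MulAut P), SzY Y

end H2.Sz
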