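/- Steinberg's count of semisimple classes for Chevalley groups. -/
import Cfsg.Agent.H2.CRLie
import Cfsg.Agent.H63.AdMat
import Cfsg.Agent.H64.TorKer
import Cfsg.Agent.H64.Stein

set_option autoImplicit false
set_option linter.unusedSectionVars false

namespace H2

open Cfsg Cfsg.Lie H63 H64 H65

variable {p : ℕ} [Fact p.Prime] {D : ChevalleyDatum} [RS D] {K : Type*} [Field K] [Fintype K]
  [CharP K p]

section
variable {G : Type*} [Group G] [Finite G] {x : ℕ → K → G}

theorem isPGroup_rgd_U (h : StB D x) : IsPGroup p h.rgd.U := by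
  obtain ⟨n, -, hn⟩ := FiniteField.card K p
  exact IsPGroup.of_card (by rw [h.card_U, Nat.card_eq_fintype_card, hn, ← pow_mul])

theorem card_pReg_of_stB (h : StB D x) (hG : GG D x = ⊤) (τ : (Fin D.rank → Kˣ) →* G)
    (hinj : Function.Injective τ)
    (hτ : ∀ i c, τ (Pi.mulSingle i c) = hh D x (D.simple i) c) :
    Nat.card {c : ConjClasses G // ∃ g, ConjClasses.mk g = c ∧ (orderOf g).Coprime p} =
      Fintype.card K ^ D.rank := by
  have := card_pReg_of_grd (p := p) (H54.ofRGD h.rgd) (h.rgd_Gp.trans hG) (isPGroup_rgd_U h) τ hinj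
    ((tor_range_of_single hτ).trans h.toStN.HH_eq_HS.symm) (fun i a => ?_) fun i y hy hy1 => ?_
  · rwa [Fintype.card_fin] at this
  · have h1 : ∀ t, x (D.simple i) t ∈ XR D x (simpleR i) ⊔ XR D x (negR (simpleR i)) :=
      fun t => Subgroup.mem_sup_left (x_mem_XR D x (simpleR i) t)
    have h2 : ∀ t, x (D.neg (D.simple i)) t ∈ XR D x (simpleR i) ⊔ XR D x (negR (simpleR i)) :=
      fun t => Subgroup.mem_sup_right (x_mem_XR D x (negR (simpleR i)) t)
    rw [hτ, hh_eq, nn_eq, nn_eq]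
    exact mul_mem (mul_mem (mul_mem (h1 _) (h2 _)) (h1 _)) (mul_mem (mul_mem (h1 _) (h2 _)) (h1 _))
  · obtain ⟨c, rfl⟩ := h.toSt.mem_XR.1 hy
    have hc : c ≠ 0 := by rintro rfl; exact hy1 (h.toSt.x_zero _)
    have hU : ∀ t, x (D.simple i) t ∈ h.rgd.U := fun t =>
      h.rgd.X_le_U (pos_simpleR i) (x_mem_XR D x (simpleR i) t)
    refine ⟨_, hU c⁻¹, -1 * (Units.mk0 c⁻¹ (inv_ne_zero hc))⁻¹, _, hU c⁻¹, ?_⟩
    have h1 := h.toSt.x_neg_eq (simpleR i) (-c⁻¹)
    have h2 := h.toSt.nn_mul_nn (simpleR i) (-1) c⁻¹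
    rw [← h.toSt.nn_inv] at h2
    simp only [inv_neg, inv_inv, neg_neg] at h1
    rw [Pi.mulSingle_mul, Pi.mulSingle_inv, map_mul, map_inv, hτ, hτ]
    refine h1.trans ?_
    change _ = _ * nn D x (simpleR i) 1 * (hh D x (simpleR i) (-1) * (hh D x (simpleR i) c⁻¹)⁻¹) * _
    rw [← h2]
    change _ = x (simpleR i) c⁻¹ * _ * _ * x (simpleR i) c⁻¹
    group

end

theorem card_pReg_chev [Tab D] (h : MatOK D K) (hk : cker D Kˣ = ⊥) :
    Nat.card {c : ConjClasses ↥(D.group K) // ∃ g, ConjClasses.mk g = c ∧ (orderOf g).Coprime p} =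
      Fintype.card K ^ D.rank := by
  have hm : ∀ c, tor D K c ∈ D.group K := fun c => by
    rw [group_eq]; exact HH_le_GG (h.tor_range.le ⟨c, rfl⟩)
  refine card_pReg_of_stB (stB_xG h) GG_xG ((tor D K).codRestrict _ hm) ?_ fun i c => ?_
  · rw [MonoidHom.injective_codRestrict, ← MonoidHom.ker_eq_bot_iff, tor_ker, hk]
  · exact Subtype.ext ((h.tor_single i c).trans 
      (map_hh_eq (D := D) (x := xG D K) (D.group K).subtype _ _).symm)

omit [RS D] in
theorem cker_eq_bot_of_coprime {n m : ℕ} {e : Fin m → Fin D.rank} {v Q R : List (List ℤ)}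
    (h : KerCert D n m e v Q R) (hn : n.Coprime (Fintype.card K - 1)) : cker D Kˣ = ⊥ := by
  rw [← Subgroup.card_eq_one, h.card_cker_units, Nat.card_eq_fintype_card, hn.gcd_eq_one, one_pow]

end H2
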