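/- Faithful irreducible modules for a group with a cyclic TI Sylow subgroup are large. -/
import Cfsg.Agent.H2.CycLocC

set_option autoImplicit false
set_option linter.unusedSectionVars false

namespace H2

open Finset Polynomial

theorem geom_sum_eq_sub_one_pow {k R : Type*} [Field k] [Ring R] [Algebra k R] (p n : ℕ)
    [Fact p.Prime] [CharP k p] (A : R) : ∑ i ∈ range (p ^ n), A ^ i = (A - 1) ^ (p ^ n - 1) := by
  have h : ∑ i ∈ range (p ^ n), (X : k[X]) ^ i = (X - 1) ^ (p ^ n - 1) := by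
    refine mul_right_cancel₀ (X_sub_C_ne_zero (1 : k)) ?_
    rw [C_1, geom_sum_mul, ← pow_succ, Nat.sub_add_cancel (Nat.one_le_pow _ _ (Fact.out : p.Prime).pos),
      sub_pow_char_pow, one_pow]
  simpa using congrArg (aeval A) h

theorem exists_pow_sub_one_pow {k R : Type*} [Field k] [Ring R] [Algebra k R] (p : ℕ)
    [Fact p.Prime] [CharP k p] (y : R) {a : ℕ} (ha : ¬ p ∣ a) :
    ∃ z, ((y + 1) ^ a - 1) ^ (p - 1) = y ^ (p - 1) + y ^ p * z := by
  have hp := (Fact.out : p.Prime).pos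
  have h1 : ∀ a : ℕ, ∃ g : k[X], (X + 1) ^ a - 1 = X * (C (a : k) + X * g) := by
    intro a
    induction a with
    | zero => exact ⟨0, by simp⟩
    | succ a ih =>
      obtain ⟨g, hg⟩ := ih
      refine ⟨g + C (a : k) + X * g, ?_⟩
      rw [pow_succ, eq_add_of_sub_eq hg, Nat.cast_succ, C_add, C_1]; ring
  obtain ⟨g, hg⟩ := h1 a
  obtain ⟨h, hh⟩ := sub_dvd_pow_sub_pow (C (a : k) + X * g) (C (a : k)) (p - 1)
  have h2 : (a : k) ^ (p - 1) = 1 := by
    have h0 : (a : k) ≠ 0 := by rwa [Ne, CharP.cast_eq_zero_iff k p]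
    refine mul_right_cancel₀ h0 ?_
    rw [← pow_succ, Nat.sub_add_cancel hp, one_mul]
    exact map_natCast (frobenius k p) a
  rw [← C_pow, h2, C_1, add_sub_cancel_left] at hh
  have h3 : ((X + 1) ^ a - 1 : k[X]) ^ (p - 1) = X ^ (p - 1) + X ^ p * (g * h) := by
    rw [hg, mul_pow, eq_add_of_sub_eq hh]
    conv_rhs => rw [← Nat.sub_add_cancel hp]
    rw [Nat.add_sub_cancel]; ring
  exact ⟨aeval y (g * h), by simpa using congrArg (aeval y) h3⟩

theorem pow_mul_sub_pow_eq_zero {R : Type*} [Ring R] {a b : R} (h : Commute a b) {d j m p : ℕ}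
    (ha : a ^ d = 0) (hb : b ^ d = 0) (hj : d ≤ j + p) (hm : d + p ≤ m + 1) :
    a ^ j * (a - b) ^ m = 0 := by
  rw [sub_eq_add_neg, h.neg_right.add_pow, mul_sum]
  refine sum_eq_zero fun i _ => ?_
  by_cases hi : p ≤ i
  · rw [← mul_assoc, ← mul_assoc, ← pow_add, pow_eq_zero_of_le (by omega) ha]; simp
  · rw [neg_pow, pow_eq_zero_of_le (m := d) (by omega) hb]; simp

theorem cyclic_ti_dim {G : Type*} [Group G] [Finite G] (p : ℕ) [Fact p.Prime] (P : Sylow p G)
    (hcyc : IsCyclic P) (n : ℕ) (hn : 2 ≤ n) (hPn : Nat.card P = p ^ n)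
    (hTI : ∀ Q : Sylow p G, Q ≠ P → (P : Subgroup G) ⊓ (Q : Subgroup G) = ⊥) {F : Type*} [Field F]
    [CharP F p] {V : Type*} [AddCommGroup V] [Module F V] [FiniteDimensional F V]
    (ρ : Representation F G V) (hfaith : Function.Injective ρ) (hirr : ρ.IsIrreducible) :
    p ^ n - (p - 1) ≤ Module.finrank F V := by
  classical
  have := Fintype.ofFinite G
  have hp : p.Prime := Fact.out
  have hp2 := hp.two_le
  by_contra hlt
  obtain ⟨⟨x, hxP⟩, hx⟩ := IsCyclic.exists_generator (α := P)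
  have hox : orderOf x = p ^ n := by
    rw [← hPn, ← orderOf_eq_card_of_forall_mem_zpowers hx, Subgroup.orderOf_mk]
  have hpow : ∀ d ∈ (P : Subgroup G), ∃ i : ℕ, x ^ i = d := fun d hd => by
    obtain ⟨i, hi⟩ := (mem_powers_iff_mem_zpowers).2 (hx ⟨d, hd⟩)
    exact ⟨i, congrArg Subtype.val hi⟩
  have hpq : p < p ^ n := by
    calc p = p ^ 1 := (pow_one p).symm
      _ < p ^ n := Nat.pow_lt_pow_right hp.one_lt (by omega)
  set y : Module.End F V := ρ x - 1 with hy
  have hV : Nontrivial V := by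
    by_contra h
    rw [not_nontrivial_iff_subsingleton] at h
    have : x = 1 := hfaith (Subsingleton.elim _ _)
    rw [this, orderOf_one] at hox; omega
  have : CharP (Module.End F V) p := charP_of_injective_algebraMap (algebraMap F _).injective p
  have hyp : y ^ p ≠ 0 := fun h => by
    rw [hy, sub_pow_char_of_commute _ (Commute.one_right _), one_pow, sub_eq_zero, ← map_pow,
      ← map_one ρ] at h
    have := Nat.le_of_dvd hp.pos (orderOf_dvd_of_pow_eq_one (hfaith h))
    omega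
  have hnil : IsNilpotent y := ⟨p ^ n, by
    rw [hy, sub_pow_char_pow_of_commute _ _ (Commute.one_right _), ← map_pow, ← hox,
      pow_orderOf_eq_one]; simp⟩
  have hfin : y ^ Module.finrank F V = 0 := by
    have := y.aeval_self_charpoly
    rwa [hnil.charpoly_eq_X_pow_finrank, aeval_X_pow] at this
  have hex : ∃ d, y ^ d = 0 := ⟨_, hfin⟩
  have hd := Nat.find_spec hex
  have hdle : Nat.find hex ≤ Module.finrank F V := Nat.find_min' hex hfin
  have hpd : p < Nat.find hex := by
    by_contra h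
    exact hyp (pow_eq_zero_of_le (not_lt.1 h) hd)
  have hd1 : y ^ (Nat.find hex - 1) ≠ 0 := Nat.find_min hex (by omega)
  generalize Nat.find hex = d at hd hdle hpd hd1
  set N := Subgroup.normalizer ((P : Subgroup G) : Set G) with hN
  have hPN : (P : Subgroup G) ≤ N := Subgroup.le_normalizer
  let Θ : G → Module.End F V := fun g => ρ g * y ^ (p - 1) * ρ g⁻¹
  have hinv : ∀ g, ρ g * ρ g⁻¹ = 1 := fun g => by rw [← map_mul, mul_inv_cancel, map_one]
  have hR : ∀ g, ∀ d ∈ (P : Subgroup G), Θ (g * d) = Θ g := fun g d hd => by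
    obtain ⟨i, rfl⟩ := hpow d hd
    have hc : Commute (ρ (x ^ i)) (y ^ (p - 1)) := by
      rw [map_pow]
      exact (((Commute.refl _).sub_right (Commute.one_right _)).pow_pow _ _)
    simp only [Θ, mul_inv_rev, map_mul]
    rw [mul_assoc (ρ g), hc.eq, mul_assoc, mul_assoc, ← mul_assoc (ρ (x ^ i)), hinv, one_mul,
      mul_assoc]
  have hL : ∀ h g, ρ h * Θ g * ρ h⁻¹ = Θ (h * g) := fun h g => by
    simp only [Θ, mul_inv_rev, map_mul, mul_assoc]
  obtain ⟨κ, hκ⟩ := exists_isWt (P : Subgroup G)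
  obtain ⟨κ₃, h₃⟩ := exists_wt2 (P : Subgroup G) P
  let Θ' : G → Module.End F V := fun g => if g ∈ N then 0 else Θ g
  have hR' : ∀ g, ∀ d ∈ (P : Subgroup G), Θ' (g * d) = Θ' g := fun g d hd => by
    simp only [Θ', N.mul_mem_cancel_right (hPN hd), hR g d hd]
  set θ := ∑ g, κ₃ g • Θ' g with hθ
  have hβ : ∑ g, κ g • Θ' g = ∑ d : (P : Subgroup G), ρ d * θ * ρ (d : G)⁻¹ := by
    have h1 : ∀ d : (P : Subgroup G), ρ d * θ * ρ (d : G)⁻¹ = ∑ g, κ₃ ((d : G)⁻¹ * g) • Θ' g := by
      intro d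
      rw [hθ, mul_sum, sum_mul]
      refine Fintype.sum_equiv (Equiv.mulLeft (d : G)) _ _ fun g => ?_
      simp only [Equiv.coe_mulLeft, inv_mul_cancel_left, mul_smul_comm, smul_mul_assoc, Θ',
        N.mul_mem_cancel_left (hPN d.2)]
      split_ifs
      · simp
      · rw [hL]
    simp only [h1]
    rw [sum_comm]
    simp only [← sum_smul]
    refine sum_wt_eq' (fun g hg => ?_) hR'
    have hg' : g ∉ N := fun h => hg (by simp [Θ', h])
    rw [hκ, sum_comm, ← h₃ g fun a ha b hb hab => ?_]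
    · simp only [← mul_assoc]
      exact (sum_subgroup_inv _ fun d => ∑ b : (P : Subgroup G), κ₃ (d * g * b)).symm
    · have h2 := hTI (g • P) fun h => hg' (Sylow.smul_eq_iff_mem_normalizer.1 h)
      rw [← Subgroup.mem_bot, ← h2]
      refine ⟨ha, ?_⟩
      have : a = MulAut.conj g • b⁻¹ := by
        rw [MulAut.smul_def, MulAut.conj_apply]
        calc a = a * g * b * b⁻¹ * g⁻¹ := by group
          _ = _ := by rw [hab]
      rw [this]
      exact Subgroup.smul_mem_pointwise_smul _ _ _ (Subgroup.inv_mem _ hb)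
  have hβ0 : y ^ (d - p) * ∑ g, κ g • Θ' g = 0 := by
    let L := LinearMap.mulLeft F y
    let R := LinearMap.mulRight F y
    let S := LinearMap.mulRight F (ρ x⁻¹)
    have hA : LinearMap.mulLeft F (ρ x) * S - 1 = (L - R) * S := LinearMap.ext fun t => by
      have : ρ x⁻¹ * ρ x = 1 := by rw [← map_mul, inv_mul_cancel, map_one]
      simp [L, R, S, hy, sub_mul, mul_sub, mul_assoc, this]
    have hLR : Commute L R := LinearMap.commute_mulLeft_right _ _
    have hS : Commute (L - R) S := by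
      refine (LinearMap.commute_mulLeft_right _ _).sub_left (LinearMap.ext fun t => ?_)
      have : Commute (ρ x⁻¹) y :=
        (((Commute.refl x).inv_left.map ρ).sub_right (Commute.one_right _))
      simp [R, S, mul_assoc, this.eq]
    have h1 : ∑ d : (P : Subgroup G), ρ d * θ * ρ (d : G)⁻¹ =
        (∑ i ∈ range (p ^ n), (LinearMap.mulLeft F (ρ x) * S) ^ i) θ := by
      rw [LinearMap.sum_apply]
      symm
      refine sum_bij (fun i _ => ⟨x ^ i, Subgroup.pow_mem _ hxP i⟩) (fun _ _ => mem_univ _)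
        (fun i hi j hj h => ?_) (fun d _ => ?_) fun i _ => ?_
      · exact pow_injOn_Iio_orderOf (by simpa [hox] using hi) (by simpa [hox] using hj)
          (congrArg Subtype.val h)
      · obtain ⟨i, hi⟩ := hpow d d.2
        exact ⟨i % p ^ n, mem_range.2 (Nat.mod_lt _ (by omega)),
          Subtype.ext (by show x ^ (i % p ^ n) = d; rw [← hi, ← hox, pow_mod_orderOf])⟩
      · rw [(LinearMap.commute_mulLeft_right _ _).mul_pow]
        simp [S, LinearMap.pow_mulLeft, LinearMap.pow_mulRight, mul_assoc, ← inv_pow]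
    rw [hβ, h1, geom_sum_eq_sub_one_pow (k := F), hA, hS.mul_pow]
    have h2 := pow_mul_sub_pow_eq_zero hLR (d := d) (j := d - p) (m := p ^ n - 1) (p := p)
      (by simp [L, LinearMap.pow_mulLeft, hd]) (by simp [R, LinearMap.pow_mulRight, hd])
      (by omega) (by omega)
    have h3 := LinearMap.congr_fun h2 ((S ^ (p ^ n - 1)) θ)
    simpa [L, LinearMap.pow_mulLeft] using h3
  have hNpart : ∀ g ∈ N, y ^ (d - p) * Θ g = y ^ (d - 1) := fun g hg => by
    obtain ⟨a, ha⟩ := hpow _ ((Subgroup.mem_normalizer_iff.1 hg x).1 hxP)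
    have hpa : ¬ p ∣ a := by
      rintro ⟨b, rfl⟩
      have h1 : (g * x * g⁻¹) ^ p ^ (n - 1) = 1 := by
        rw [← ha, ← pow_mul, mul_right_comm, ← pow_succ', Nat.sub_add_cancel (by omega), pow_mul,
          ← hox, pow_orderOf_eq_one, one_pow]
      rw [conj_pow, mul_inv_eq_one, mul_eq_left] at h1
      have h2 := Nat.le_of_dvd (pow_pos hp.pos _) (hox ▸ orderOf_dvd_of_pow_eq_one h1)
      exact absurd h2 (not_le.2 (Nat.pow_lt_pow_right hp.one_lt (by omega)))
    obtain ⟨z, hz⟩ := exists_pow_sub_one_pow (k := F) p y hpa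
    have h1 : Θ g = (ρ g * y * ρ g⁻¹) ^ (p - 1) := by
      have h2 : ρ g⁻¹ * ρ g = 1 := by rw [← map_mul, inv_mul_cancel, map_one]
      exact ((Units.mk (ρ g) (ρ g⁻¹) (hinv g) h2).conj_pow y (p - 1)).symm
    have h2 : ρ g * y * ρ g⁻¹ = (y + 1) ^ a - 1 := by
      rw [hy, sub_add_cancel, ← map_pow, ha, mul_sub, sub_mul, mul_one, hinv, map_mul, map_mul]
    rw [h1, h2, hz, mul_add, ← mul_assoc, ← pow_add, ← pow_add, Nat.sub_add_cancel hpd.le, hd,
      zero_mul, add_zero, show d - p + (p - 1) = d - 1 by omega]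
  set r : ℕ := ∑ z : N, κ (1 * z) with hr
  have hr0 : (r : F) ≠ 0 := by
    rw [Ne, CharP.cast_eq_zero_iff F p]
    intro h
    have h1 := hκ.sum_mul_card hPN 1
    have h2 := Subgroup.card_subgroup_dvd_card N
    rw [← h1, ← (P : Subgroup G).index_mul_card] at h2
    exact P.not_dvd_index (h.trans (Nat.dvd_of_mul_dvd_mul_right Nat.card_pos h2))
  set α := ∑ g, κ g • Θ g with hα
  have hmain : y ^ (d - p) * α = (r : F) • y ^ (d - 1) := by
    rw [← sub_zero (_ * α), ← hβ0, hα, ← mul_sub, ← sum_sub_distrib, mul_sum, hr,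
      Nat.cast_smul_eq_nsmul, sum_subgroup_eq fun z => κ (1 * z), sum_smul]
    refine sum_congr rfl fun g _ => ?_
    simp only [Θ']
    split_ifs with h
    · rw [smul_zero, sub_zero, mul_smul_comm, hNpart g h, one_mul]
    · simp
  have hcomm : ∀ h, ρ h * α * ρ h⁻¹ = α := fun h => by
    conv_lhs => rw [hα, mul_sum, sum_mul]
    simp only [mul_smul_comm, smul_mul_assoc, hL]
    exact hκ.sum_shift hR h
  let W : Subrepresentation ρ := ⟨LinearMap.range α, by
    rintro g _ ⟨v, rfl⟩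
    refine ⟨ρ g v, ?_⟩
    conv_lhs => rw [← hcomm g]
    rw [Module.End.mul_apply, ← Module.End.mul_apply (ρ g⁻¹), ← map_mul, inv_mul_cancel, map_one]
    rfl⟩
  apply hd1
  rcases hirr.eq_bot_or_eq_top W with h | h
  · have h1 : α = 0 := LinearMap.range_eq_bot.1 (congrArg Subrepresentation.toSubmodule h)
    rw [h1, mul_zero] at hmain
    exact (smul_eq_zero.1 hmain.symm).resolve_left hr0
  · have h1 : Function.Surjective α :=
      LinearMap.range_eq_top.1 (congrArg Subrepresentation.toSubmodule h)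
    have h2 : y ^ (d - 1) * α = 0 := by
      rw [show d - 1 = (p - 1) + (d - p) by omega, pow_add, mul_assoc, hmain, mul_smul_comm,
        ← pow_add, pow_eq_zero_of_le (by omega) hd, smul_zero]
    refine LinearMap.ext fun v => ?_
    obtain ⟨w, rfl⟩ := h1 v
    exact LinearMap.congr_fun h2 w

end H2
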