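import Cfsg.Agent.H63.KgvSpec
import Cfsg.Agent.H31.KgvWrap

/-! # Tower KGV: from coordinates to arbitrary modules -/

set_option autoImplicit false

namespace H2.KgvFin

open Cfsg H34 H63.Kgv ComplexConjugate

universe u

theorem as_gen {H : Type*} [Group H] [Fintype H] {θ : H → ℂ} (h : IsGeneralizedCharacter H θ) :
    AS θ := by
  obtain ⟨a, b, ha, hb, rfl⟩ := h
  have := (as_char ha).add ((as_char hb).smul (c := -1) isIntegral_one.neg)
  rwa [neg_one_smul, ← sub_eq_add_neg] at this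

theorem root_conj (σ : ℂ ≃+* ℂ) {z : ℂ} {n : ℕ} (hn : n ≠ 0) (h : z ^ n = 1) :
    σ (conj z) = conj (σ z) := by
  have h' : σ z ^ n = 1 := by rw [← map_pow, h, map_one]
  rw [← Complex.inv_eq_conj (Complex.norm_eq_one_of_pow_eq_one h hn), map_inv₀,
    Complex.inv_eq_conj (Complex.norm_eq_one_of_pow_eq_one h' hn)]

theorem gen_conj {H : Type*} [Group H] [Fintype H] {θ : H → ℂ} (h : IsGeneralizedCharacter H θ)
    (σ : ℂ ≃+* ℂ) (y : H) : σ (conj (θ y)) = conj (σ (θ y)) := by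
  obtain ⟨a, b, ha, hb, rfl⟩ := h
  have e : ∀ c : H → ℂ, IsCharacter H c → σ (conj (c y)) = conj (σ (c y)) := fun c hc => by
    rw [← H28.Cfsg.IsCharacter.apply_inv hc]
    exact H28.Cfsg.IsCharacter.apply_inv (H29.Cfsg.IsCharacter.gal hc σ.toRingHom) y
  simp only [Pi.sub_apply, map_sub, e a ha, e b hb]

theorem job : Main.{u} → H31.Kgv.GamSt.{u} := by
  intro hm p hp H _ _ V _ _ _ ρ hH
  have : FiniteDimensional (ZMod p) V := Module.Finite.of_finite
  let e := (Module.finBasis (ZMod p) V).equivFun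
  let ρ' : H →* Module.End (ZMod p) (Fin (Module.finrank (ZMod p) V) → ZMod p) :=
    (e.conjRingEquiv : _ →* _).comp ρ
  have hρ : ∀ y v, ρ' y (e v) = e (ρ y v) := fun y v => by simp [ρ']
  obtain ⟨f, ⟨Θ, hΘ, hf⟩, h⟩ := hm p H _ ρ' hH
  obtain ⟨h1, h2⟩ := h 1 one_ne_zero
  have hee : ∀ c : ZMod p, ee p c ^ p = 1 := fun c => by
    rw [← AddChar.map_nsmul_eq_pow, nsmul_eq_mul, CharP.cast_eq_zero, zero_mul,
      AddChar.map_zero_eq_one]
  have as : AS (f 1) := by
    convert as_sum Finset.univ fun c _ => (as_gen (hΘ c)).smul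
      (IsIntegral.of_pow hp.out.pos (by rw [hee (1 * c)]; exact isIntegral_one)) using 1
    ext y
    rw [hf 1 one_ne_zero]
    simp
  refine ⟨f 1, as, fun σ y => ?_, by rw [h1, inv_one]; exact isIntegral_one,
    by rw [h1]; exact one_ne_zero, fun y hy => ?_⟩
  · have e1 : σ (conj (f 1 y)) = conj (σ (f 1 y)) := by
      rw [hf 1 one_ne_zero]
      simp only [map_sum, map_mul, root_conj σ hp.out.ne_zero (hee _), gen_conj (hΘ _) σ]
    have e2 := congrArg σ (h2 y).1
    rw [map_mul, map_mul, e1, Complex.mul_conj, map_natCast, map_pow, map_natCast,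
      Complex.normSq_eq_norm_sq] at e2
    have e3 : Nat.card {x // ρ y x = x} = Nat.card {v // ρ' y v = v} :=
      Nat.card_congr (e.toEquiv.subtypeEquiv fun v => by
        show _ ↔ ρ' y (e v) = e v
        rw [hρ, e.injective.eq_iff])
    have e4 : Nat.card V = p ^ Module.finrank (ZMod p) V := by
      rw [Nat.card_congr e.toEquiv]; simp
    rw [e3, e4]
    exact le_of_eq (by exact_mod_cast e2)
  · obtain ⟨k, v, hv, hk⟩ :=
      (h2 y).2 fun h0 => hy (LinearMap.ext fun v => e.injective (by rw [← hρ, h0]; rfl))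
    have hi : IsIntegral ℤ (f 1 y) := as.int y
    exact ⟨⟨f 1 y, hi⟩, rfl, k, Ideal.mem_span_singleton'.2 ⟨⟨v, hv⟩, Subtype.ext (by
      simpa [mul_comm] using hk.symm)⟩⟩

end H2.KgvFin
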