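/- KP tower: the primitive core and the induction. -/
import Cfsg.Agent.H2.KpSpec

set_option autoImplicit false
set_option linter.unusedSectionVars false

namespace H2.Kp
open Equiv MulAction H2.Ln

theorem jobCore (lk : LamK) (rc : Rec) (top : TOP) (alt : Alt) (geo : Geo) (deg : Deg) (na : NA)
    (nb : NB) : Core := by
  intro Γ α β _ _ _ _ _ w S p hp ih hd h3 hP
  by_cases hA : alternatingGroup β ≤ S.im ⊤
  · exact alt Γ α β w S p hp ih hd h3 hA
  have hd' : ¬ p ∣ Nat.card (S.im ⊤) := fun h =>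
    hd (h.trans ((Subgroup.card_map_dvd _ _).trans (Subgroup.card_subgroup_dvd_card _)))
  obtain ⟨t, t1, t6, tn, hT, hN, hm⟩ := deg β _ p hp hd' hP hA h3
  obtain ⟨T, -, rfl⟩ := Finset.exists_subset_card_eq (s := (Finset.univ : Finset β)) (n := t)
    (by rw [Finset.card_univ]; omega)
  obtain ⟨l, l0, hJ, l3⟩ := geo β _ hP hA T t1 (by omega) hT hN
  have num : Num (Fintype.card β) := (lt_or_ge _ 117).elim (na _) (nb _)
  obtain ⟨e, m, g, D, hg, hmm, hv, fin⟩ := num w T.card l S.w12 t1 t6 tn l0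
  have dg : ∀ x ∈ fx (S.im ⊤) T, x ≠ 1 → m ≤ x.support.card := fun x hx x1 => by
    rcases hmm with a | ⟨a, b⟩
    · exact hm m a x (mem_fx.1 hx).1 x1
    · have := l3 a x hx x1
      omega
  have lam := lk Γ _ p e w g ih hd (by rcases S.w12 with a | a <;> omega) hg
  have key : ∀ U : Finset β, T ⊆ U → kc (S.fb ⊤ U) ^ e ≤ D (Fintype.card β - U.card) := by
    intro U hU
    refine rc Γ α β w S _ g D _ _ m l _ lam hv (by omega) dg hJ _
      (Nat.sub_le_sub_left (Finset.card_le_card hU) _) _ ?_ ?_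
    · rintro _ ⟨x, hx, rfl⟩
      exact mem_fx.2 ⟨⟨x, trivial, rfl⟩, fun a ha => Sys.fb_fix hx (hU ha)⟩
    · rw [← Finset.card_compl]
      exact Finset.card_le_card fun b hb =>
        Finset.mem_compl.2 (Finset.mem_sdiff.1 (S.bs_fb ⊤ U hb)).2
  obtain ⟨d, hd0, hmax⟩ := Finset.exists_max_image Tᶜ (fun d => kc (S.fb ⊤ (insert d T)))
    (Finset.card_pos.1 (by rw [Finset.card_compl]; omega))
  have tp := top Γ α β w S T _ _ t1 t6 hT le_rfl fun d' h => hmax d' (Finset.mem_compl.2 h)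
  have k2 := key (insert d T) (Finset.subset_insert _ _)
  rw [Finset.card_insert_of_notMem (Finset.mem_compl.1 hd0), ← Nat.sub_sub] at k2
  exact fin _ _ _ (key T le_rfl) k2 tp.1 fun w1 => tp.2 m w1 dg

theorem ih_all (kb : KB) (ga : GA) (st : Step) (p : ℕ) (hp : p = 3 ∨ p = 5 ∨ p = 7) (n : ℕ) :
    IH n p := by
  induction n with
  | zero => exact fun _ _ _ h => absurd h (Nat.not_lt_zero _)
  | succ n ih =>
    intro γ _ M hn hd
    rcases (Nat.lt_succ_iff.1 hn).lt_or_eq with a | a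
    · exact ih γ M a hd
    classical
    by_cases h3 : 3 ≤ Fintype.card γ
    · exact st γ M p hp (a ▸ ih) hd h3
    · refine (kb.card M).trans ((Subgroup.card_le_card_group M).trans ?_)
      rw [Nat.card_eq_fintype_card, Fintype.card_perm]
      obtain ⟨v0, v1, v2, -⟩ := ga.val
      obtain e | e | e : Fintype.card γ = 0 ∨ Fintype.card γ = 1 ∨ Fintype.card γ = 2 := by omega
      all_goals rw [e]; simp [v0, v1, v2]

theorem cc_congr {A : Type*} {B : Type} [Group A] [Group B] (e : A ≃* B) :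
    Nat.card (ConjClasses A) = kk B :=
  Nat.card_congr (Quotient.congr e.toEquiv fun a b =>
    ⟨fun h => e.toMonoidHom.map_isConj h, fun h => by
      show IsConj a b
      simpa using e.symm.toMonoidHom.map_isConj h⟩)

theorem main (kb : KB) (ga : GA) (st : Step) {α : Type*} [Fintype α] [DecidableEq α]
    (S : Subgroup (Perm α)) (hn : 3 ≤ Fintype.card α) (p : ℕ) (hp : p = 3 ∨ p = 5 ∨ p = 7)
    (hcop : ¬ p ∣ Nat.card S) : Nat.card (ConjClasses S) ^ 2 ≤ 3 ^ (Fintype.card α - 1) := by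
  let e : Perm α ≃* Perm (Fin (Fintype.card α)) := (Fintype.equivFin α).permCongrHom
  have h := ih_all kb ga st p hp (Fintype.card α + 1) (Fin (Fintype.card α))
    (S.map (e : Perm α →* Perm (Fin (Fintype.card α)))) (by simp)
    (by rwa [← Nat.card_congr (e.subgroupMap S).toEquiv] )
  rw [Fintype.card_fin] at h
  rw [cc_congr (e.subgroupMap S)]
  exact ga.sq _ _ hn h

end H2.Kp
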