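/- KP tower: soundness of the tables. -/
import Cfsg.Agent.H2.KpNA0

set_option autoImplicit false

namespace H2.Kp
open H2.Ln (allLt anyLt allLt_s anyLt_s)

theorem valid_of {w m N N' T l : ℕ} (h : va w m N' T = true) (hN : N ≤ N') (h1 : N < 117)
    (hv : 3 ≤ l → l < 12 → vb w m N T l = true) : Valid (en GT) (en T) (w ^ 1) w N m l := by
  simp only [va, Bool.and_eq_true] at h
  obtain ⟨⟨a1, a2⟩, a3⟩ := h
  rw [pow_one]
  refine ⟨Nat.le_of_ble_eq_true a1, fun s hs => Nat.le_of_ble_eq_true (allLt_s a2 s (by omega)),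
    fun s hs hm a ha has => ?_, fun s hs hm hj c hc => ?_⟩
  · have b := allLt_s a3 s (Nat.lt_succ_of_le (hs.trans hN))
    rw [Bool.or_eq_true] at b
    rcases b with b | b
    · exact absurd (Nat.blt_eq.mp b) (not_lt.2 hm)
    · have d := allLt_s b a (Nat.lt_succ_of_le (show a ≤ s / 2 by omega))
      rw [Bool.or_eq_true] at d
      rcases d with d | d
      · exact absurd (Nat.blt_eq.mp d) (not_lt.2 ha)
      · exact Nat.le_of_ble_eq_true d
  · obtain ⟨j1, j2, j3⟩ := hj
    have l12 : l < 12 := by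
      by_contra e
      have : 12 * 11 ≤ (N + 2 - s) * (l - 1) := Nat.mul_le_mul (by omega) (by omega)
      omega
    have b := allLt_s (hv j1 l12) c (Nat.lt_succ_of_le (show c ≤ N / (l - 1) from
      (Nat.le_div_iff_mul_le (by omega)).2 (by rw [mul_comm, ← hc]; exact hs.le)))
    subst hc
    simp only [Bool.or_eq_true] at b
    rcases b with ((((b | b) | b) | b) | b) | b
    · exact absurd (Nat.blt_eq.mp b) (not_lt.2 hm)
    · exact absurd (Nat.le_of_ble_eq_true b) (not_le.2 hs)
    · exact absurd (Nat.blt_eq.mp b) (not_lt.2 j2)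
    · exact absurd (Nat.blt_eq.mp b) (not_lt.2 j3)
    · exact Or.inl (Nat.le_of_ble_eq_true b)
    · obtain ⟨u, hu, d⟩ := anyLt_s b
      exact Or.inr ⟨u, hu, Nat.le_of_ble_eq_true d⟩

theorem ok_of {w m N T c t l : ℕ} (h : va w m N T = true) (hw : w = 1 ∨ w = 2) (hc : c < 117)
    (h1 : t = 1 → l = 0) (hs : cs w m N T c t (if l = 3 then 1 else 0) = true) : NumOK c w t l := by
  simp only [cs, Bool.and_eq_true, Bool.or_eq_true] at hs
  obtain ⟨⟨⟨a1, a2⟩, a3⟩, a4⟩ := hs
  refine ⟨1, m, en GT, en T, fun a ha => by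
      rw [pow_one]; exact gg_le a (by rcases hw with e | e <;> subst e <;> omega), ?_,
    valid_of h (Nat.le_of_ble_eq_true a1) (by omega) fun l3 l12 => ?_,
    fun k k1 k2 b1 b2 b3 b4 => Or.inr (Or.inr ?_)⟩
  · rcases a3 with ⟨a, b⟩ | a
    · refine Or.inr ⟨?_, Nat.le_of_ble_eq_true b⟩
      by_contra e
      rw [if_neg e] at a
      exact absurd a (by decide)
    · exact Or.inl fun m0 hm => by simpa using allLt_s a m0 hm
  · rcases a4 with a | a
    · have := h1 (Nat.eq_of_beq_eq_true a)
      omega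
    · have b := allLt_s a l l12
      simp only [Bool.and_eq_true, Bool.or_eq_true] at b
      rcases b with ((b | ⟨b, d⟩) | ⟨b, d⟩) | b
      · exact absurd (Nat.blt_eq.mp b) (not_lt.2 l3)
      · rw [if_pos (Nat.eq_of_beq_eq_true b)] at d
        exact absurd d (by decide)
      · rw [if_neg (Nat.blt_eq.mp b).ne'] at d
        exact absurd d (by decide)
      · exact b
  · rw [pow_one] at b1 b2
    simp only [tp, Bool.and_eq_true, Bool.or_eq_true] at a2
    rcases a2 with a | ⟨a, b⟩
    · refine le_trans ?_ (Nat.le_of_ble_eq_true a)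
      gcongr
      exact b3.trans (by gcongr)
    · refine le_trans ?_ (Nat.le_of_ble_eq_true b)
      gcongr
      exact (b4 (Nat.eq_of_beq_eq_true a)).trans (by gcongr)

theorem jobNA : NA := by
  intro c hc w t l hw t1 t6 tc h1
  have k2 : (if l = 3 then 1 else 0) < 2 := by split_ifs <;> omega
  have h := allLt_s (allLt_s (allLt_s (allLt_s cover c hc) t (by omega)) _ k2) w (by omega)
  simp only [Bool.and_eq_true, Bool.or_eq_true, List.any_eq_true] at h
  rcases h with (((h | h) | h) | ⟨h, h'⟩) | ⟨r, hr, e, h⟩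
  · have := Nat.eq_of_beq_eq_true h; omega
  · have := Nat.eq_of_beq_eq_true h; omega
  · have := Nat.blt_eq.mp h; omega
  · rw [h1 (Nat.eq_of_beq_eq_true h)] at h'
    exact absurd h' (by decide)
  · have k : ck r = true := by
      simp only [List.mem_append] at hr
      rcases hr with ((a | a) | a) | a
      exacts [List.all_eq_true.1 ck0 r a, List.all_eq_true.1 ck1 r a, List.all_eq_true.1 ck2 r a,
        List.all_eq_true.1 ck3 r a]
    simp only [ck, Bool.and_eq_true] at k
    have b := allLt_s (allLt_s (allLt_s k.2 c hc) t (by omega)) _ k2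
    rw [Bool.or_eq_true] at b
    obtain rfl := Nat.eq_of_beq_eq_true e
    rcases b with b | b
    · have := (Nat.eq_of_beq_eq_true b).symm.trans (Nat.eq_of_beq_eq_true h)
      omega
    · exact ok_of k.1 hw hc h1 b

end H2.Kp
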