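/- S3776, job C, part 1: basics, covers, Maschke (port of `H69.Higman1/2`). -/
import Cfsg.Agent.H2.SzSpec
import Cfsg.Agent.H69.Higman4
import Cfsg.Agent.H48.Maschke
import Cfsg.Agent.H1.Cocycle

set_option autoImplicit false
set_option linter.unusedSectionVars false
set_option linter.style.haveILetI false

universe u

namespace H2.Sz

open H69

variable {P : Type u} [Group P] {Y : Subgroup (MulAut P)}

theorem Inv.of_apply {X : Subgroup P} (hX : Inv Y X) {y : MulAut P} (hy : y ∈ Y) {x : P}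
    (hx : y x ∈ X) : x ∈ X := by
  simpa using hX _ (Y.inv_mem hy) _ hx

namespace SzY

variable [Finite P] (h : SzY Y)
include h

theorem comm {x : P} (hx : x * x = 1) (y : P) : x * y = y * x := by
  by_cases hx1 : x = 1
  · simp [hx1]
  have : Nontrivial P := ⟨x, 1, hx1⟩
  have := h.two.center_nontrivial
  obtain ⟨z, hz⟩ := exists_ne (1 : Subgroup.center P)
  obtain ⟨j, h1, h2⟩ := exists_invol_pow h.two (x := (z : P)) (fun e => hz (Subtype.ext e))
  rw [pow_two_pow_succ] at h2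
  obtain ⟨k, -, rfl⟩ := h.trans _ _ h1 h2 hx1 hx
  obtain ⟨y, rfl⟩ := k.surjective y
  rw [← map_mul, ← map_mul, Subgroup.mem_center_iff.mp (Subgroup.pow_mem _ z.2 _)]

/-- The subgroup of elements of order at most two. -/
def T : Subgroup P where
  carrier := {x | x * x = 1}
  one_mem' := mul_one 1
  mul_mem' {x y} hx hy := by
    show x * y * (x * y) = 1
    rw [mul_assoc, ← mul_assoc y, ← h.comm hx y, mul_self_cancel_right hy]
    exact hx
  inv_mem' {x} hx := by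
    show x⁻¹ * x⁻¹ = 1
    rw [← mul_inv_rev, show x * x = 1 from hx, inv_one]

theorem mem_T {x : P} : x ∈ h.T ↔ x * x = 1 := Iff.rfl

theorem T_inv : Inv Y h.T := by
  intro a _ x hx
  rw [mem_T, ← map_mul, h.mem_T.mp hx, map_one]

theorem T_normal : h.T.Normal := ⟨fun x hx g => by
  rw [← h.comm hx g, mul_inv_cancel_right]; exact hx⟩

theorem T_le {X : Subgroup P} (hX : Inv Y X) (hX1 : X ≠ ⊥) : h.T ≤ X := by
  intro y hy
  by_cases hy1 : y = 1
  · rw [hy1]; exact X.one_mem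
  obtain ⟨⟨x, hx⟩, hx1⟩ := Subgroup.ne_bot_iff_exists_ne_one.mp hX1
  obtain ⟨j, h1, h2⟩ := exists_invol_pow h.two (x := x) (fun e => hx1 (Subtype.ext e))
  rw [pow_two_pow_succ] at h2
  obtain ⟨k, hk, rfl⟩ := h.trans _ _ h1 h2 hy1 hy
  exact hX k hk _ (X.pow_mem hx _)

theorem T_ne_bot : h.T ≠ ⊥ := by
  obtain ⟨x, -, -, hx1, hx, -⟩ := h.many
  exact Subgroup.ne_bot_iff_exists_ne_one.mpr ⟨⟨x, hx⟩, fun e => hx1 (congrArg Subtype.val e)⟩

theorem eq_one_of_fix {x : P} (hx : ∀ y ∈ Y, y x = x) : x = 1 := by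
  by_contra hx1
  obtain ⟨j, h1, h2⟩ := exists_invol_pow h.two hx1
  rw [pow_two_pow_succ] at h2
  obtain ⟨a, b, hab, a1, a2, b1, b2⟩ := h.many
  obtain ⟨k, hk, rfl⟩ := h.trans _ _ h1 h2 a1 a2
  obtain ⟨l, hl, rfl⟩ := h.trans _ _ h1 h2 b1 b2
  exact hab (by rw [map_pow, map_pow, hx k hk, hx l hl])

theorem coprime {Z : Subgroup (MulAut P)} (hZ : Z ≤ Y) (K : Subgroup P) :
    (Nat.card Z).Coprime (Nat.card K) := by
  obtain ⟨n, hn⟩ := IsPGroup.iff_card.mp (h.two.to_subgroup K)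
  rw [hn]
  exact (Nat.coprime_two_right.2 (h.odd.of_dvd_nat (Subgroup.card_dvd_of_le hZ))).pow_right n

theorem exists_fixed {Z : Subgroup (MulAut P)} (hZ : Z ≤ Y) {K : Subgroup P} (hK : Inv Y K) {x : P}
    (hx : ∀ y ∈ Z, x⁻¹ * y x ∈ K) : ∃ n ∈ K, ∀ y ∈ Z, y (x * n) = x * n := by
  have := (h.two.to_subgroup K).isNilpotent
  obtain ⟨n, hn, e⟩ := H1.exists_fixed_mem_coset Z.subtype K (fun a => hK a (hZ a.2))
    (h.coprime hZ K) (Or.inr inferInstance) x fun a => hx a a.2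
  exact ⟨n, hn, fun y hy => e ⟨y, hy⟩⟩

/-- `Y` fixes no coset of an invariant subgroup other than the subgroup. -/
theorem fix {K : Subgroup P} (hK : Inv Y K) {x : P} (hx : ∀ y ∈ Y, x⁻¹ * y x ∈ K) : x ∈ K := by
  obtain ⟨n, hn, e⟩ := h.exists_fixed le_rfl hK hx
  rw [eq_inv_of_mul_eq_one_left (h.eq_one_of_fix e)]
  exact K.inv_mem hn

theorem cm_T {t : P} (ht : t * t = 1) (y : P) : cm t y = 1 := cm_eq_one_iff.mpr (h.comm ht y)

/-- Between two normal invariant subgroups `A < X` there is a cover of `A`. -/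
theorem exists_cover {X A : Subgroup P} [X.Normal] [A.Normal]
    (hX : Inv Y X) (hA : Inv Y A) (hlt : A < X) :
    ∃ C : Subgroup P, A ≤ C ∧ C ≤ X ∧ (∀ c ∈ C, ∀ y, cm c y ∈ A) ∧ (∀ c ∈ C, c * c ∈ A) ∧
      Inv Y C ∧ Irr Y A C ∧ ¬ C ≤ A := by
  have hcomm : ∀ c y : P, c⁻¹ * y⁻¹ * c * y ∈ A ↔ (c : P ⧸ A) * y = y * c := by
    intro c y
    rw [← QuotientGroup.mk_mul, ← QuotientGroup.mk_mul, eq_comm, QuotientGroup.eq, mul_inv_rev,
      ← mul_assoc]
  let Z : Subgroup P :=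
    { carrier := {x | x ∈ X ∧ (∀ y : P, (x : P ⧸ A) * y = y * x) ∧ (x : P ⧸ A) * x = 1}
      one_mem' := ⟨X.one_mem, by simp, by simp⟩
      mul_mem' := by
        rintro x y ⟨h1, h2, h3⟩ ⟨h4, h5, h6⟩
        refine ⟨X.mul_mem h1 h4, fun z => ?_, ?_⟩
        · rw [QuotientGroup.mk_mul, mul_assoc, h5, ← mul_assoc, h2, mul_assoc]
        · rw [QuotientGroup.mk_mul, mul_assoc, ← mul_assoc (y : P ⧸ A), h5,
            mul_self_cancel_right h6, h3]
      inv_mem' := by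
        rintro x ⟨h1, h2, h3⟩
        rw [Set.mem_ofPred_eq, QuotientGroup.mk_inv, inv_eq_of_mul_self h3]
        exact ⟨X.inv_mem h1, h2, h3⟩ }
  have hZ : Inv Y Z := by
    rintro ξ hξ x ⟨h1, h2, h3⟩
    refine ⟨hX ξ hξ x h1, fun y => ?_, ?_⟩
    · obtain ⟨y, rfl⟩ := ξ.surjective y
      have := hA ξ hξ _ ((hcomm x y).mpr (h2 y))
      rw [← hcomm]
      simpa using this
    · rw [← QuotientGroup.mk_mul, QuotientGroup.eq_one_iff] at h3 ⊢
      simpa using hA ξ hξ _ h3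
  have hYZ : A < Z := by
    have hp : IsPGroup 2 (P ⧸ A) := h.two.to_quotient A
    have := hp.isNilpotent
    have hne : X.map (QuotientGroup.mk' A) ≠ ⊥ := by
      rw [Ne, Subgroup.map_eq_bot_iff, QuotientGroup.ker_mk']
      exact hlt.not_ge
    have := Subgroup.Normal.map (inferInstance : X.Normal) _ (QuotientGroup.mk'_surjective A)
    obtain ⟨⟨_, ⟨x, hx, rfl⟩, hz⟩, hz1⟩ := Subgroup.ne_bot_iff_exists_ne_one.mp
      (Cfsg.Agent.S0065.result _ hne)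
    obtain ⟨j, h1, h2⟩ := exists_invol_pow hp (x := (x : P ⧸ A)) (fun e => hz1 (Subtype.ext e))
    rw [pow_two_pow_succ] at h2
    refine SetLike.lt_iff_le_and_exists.mpr ⟨fun y hy => ?_, x ^ 2 ^ j, ⟨X.pow_mem hx _, fun y => ?_, ?_⟩, ?_⟩
    · have : (y : P ⧸ A) = 1 := (QuotientGroup.eq_one_iff y).mpr hy
      exact ⟨hlt.le hy, by simp [this], by simp [this]⟩
    · rw [QuotientGroup.mk_pow]
      exact (Subgroup.mem_center_iff.mp (Subgroup.pow_mem _ hz _) _).symm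
    · rwa [QuotientGroup.mk_pow]
    · rwa [← QuotientGroup.eq_one_iff, QuotientGroup.mk_pow]
  obtain ⟨C, ⟨hC, hYC, hCZ⟩, hmin⟩ := exists_minimal_of_wellFoundedLT
    (fun W : Subgroup P => Inv Y W ∧ A < W ∧ W ≤ Z) ⟨Z, hZ, hYZ, le_rfl⟩
  refine ⟨C, hYC.le, fun c hc => (hCZ hc).1, fun c hc y => (hcomm c y).mpr ((hCZ hc).2.1 y),
    fun u hu => by rw [← QuotientGroup.eq_one_iff, QuotientGroup.mk_mul]; exact (hCZ hu).2.2,
    hC, fun W hW h1 h2 => ?_, hYC.not_ge⟩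
  rcases h1.eq_or_lt with e | e
  · exact Or.inl e.symm
  · exact Or.inr (le_antisymm h2 (hmin ⟨hW, e, h2.trans hCZ⟩ h2))

/-- Maschke's theorem for the elementary abelian quotient `P/A`. -/
theorem exists_compl {A U : Subgroup P} [A.Normal] (hsq : ∀ u : P, u * u ∈ A) (hA : Inv Y A)
    (hU : Inv Y U) :
    ∃ W : Subgroup P, Inv Y W ∧ A ≤ W ∧ W ⊓ U ≤ A ∧ ∀ c, ∃ w ∈ W, ∃ y ∈ U, c = w * y := by
  have h2 : ∀ x : P ⧸ A, x * x = 1 := by
    intro x
    obtain ⟨x, rfl⟩ := QuotientGroup.mk_surjective x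
    rw [← QuotientGroup.mk_mul, QuotientGroup.eq_one_iff]
    exact hsq x
  letI : CommGroup (P ⧸ A) :=
    { (inferInstance : Group (P ⧸ A)) with
      mul_comm := fun x y => by
        rw [← inv_eq_of_mul_self (h2 (x * y)), mul_inv_rev, inv_eq_of_mul_self (h2 x),
          inv_eq_of_mul_self (h2 y)] }
  have hmap : ∀ y : Y, A.map (y : MulAut P).toMonoidHom = A := fun y =>
    le_antisymm (by rintro _ ⟨a, ha, rfl⟩; exact hA y y.2 a ha) fun a ha =>
      ⟨(y : MulAut P)⁻¹ a, hA _ (Y.inv_mem y.2) a ha, by simp⟩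
  let φ : Y →* MulAut (P ⧸ A) := MonoidHom.mk' (fun y => QuotientGroup.congr A A y (hmap y))
    fun a b => by
      ext x
      obtain ⟨x, rfl⟩ := QuotientGroup.mk_surjective x
      rfl
  have hφ : ∀ (y : Y) (x : P), φ y (x : P ⧸ A) = ((y : MulAut P) x : P) := fun _ _ => rfl
  set f := QuotientGroup.mk' A with hf
  obtain ⟨W₀, h1, h3⟩ := H48.exists_compl_of_elemAb (p := 2) (V := ⊤) (U := U.map f)
    ⟨inferInstance, fun x _ => by rw [pow_two, h2]⟩ le_top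
  obtain ⟨π, hπ1, hπ2⟩ := H48.exists_proj_of_compl h1 h3
  obtain ⟨W, hW, hW1, hW2⟩ := H48.maschke_abstract φ (U.map f)
    (by rintro a _ ⟨u, hu, rfl⟩; exact ⟨_, hU a a.2 u hu, rfl⟩)
    ((h.coprime le_rfl U).symm.coprime_dvd_left (Subgroup.card_map_dvd U f)) π hπ1 hπ2
  refine ⟨W.comap f, fun a ha w hw => hW ⟨a, ha⟩ _ hw, fun a ha => ?_, fun w hw => ?_, fun c => ?_⟩
  · rw [Subgroup.mem_comap, show f a = 1 from (QuotientGroup.eq_one_iff a).2 ha]; exact W.one_mem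
  · have : f w ∈ U.map f ⊓ W := ⟨⟨w, hw.2, rfl⟩, hw.1⟩
    rw [hW1] at this
    exact (QuotientGroup.eq_one_iff w).1 this
  · have : f c ∈ U.map f ⊔ W := hW2 ▸ Subgroup.mem_top _
    obtain ⟨_, ⟨y, hy, rfl⟩, z, hz, e⟩ := Subgroup.mem_sup.mp this
    refine ⟨c * y⁻¹, ?_, y, hy, by group⟩
    rw [Subgroup.mem_comap, map_mul, map_inv, ← e, mul_comm (f y), mul_inv_cancel_right]
    exact hz

end SzY

end H2.Sz
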