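/- S3776, job C, part 2: Higman's lemmas (port of `H69.Higman3`). -/
import Cfsg.Agent.H2.SzC1

set_option autoImplicit false
set_option linter.unusedSectionVars false

universe u

namespace H2.Sz

open H69

variable {P : Type u} [Group P] {Y : Subgroup (MulAut P)}

/-- `A` is an abelian normal `Y`-invariant subgroup of exponent `2^(e+1)`. -/
structure AbN (Y : Subgroup (MulAut P)) (A : Subgroup P) (e : ℕ) : Prop where
  comm : ∀ a ∈ A, ∀ b ∈ A, a * b = b * a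
  normal : A.Normal
  inv : Inv Y A
  exp : ∀ a ∈ A, a ^ 2 ^ (e + 1) = 1
  ex : ∃ a ∈ A, a ^ 2 ^ e ≠ 1

theorem sq_of_pow {a : P} {j : ℕ} (ha : a ^ 2 ^ (j + 1) = 1) : a ^ 2 ^ j * a ^ 2 ^ j = 1 := by
  rwa [← pow_two_pow_succ]

namespace AbN

variable {A : Subgroup P} {e : ℕ} (hA : AbN Y A e)
include hA

theorem cm_mem {a : P} (ha : a ∈ A) (g : P) : cm a g ∈ A := by
  have := A.mul_mem (A.inv_mem ha) (hA.normal.conj_mem' a ha g)
  simpa only [cm, mul_assoc] using this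

theorem mul_pow {a b : P} (ha : a ∈ A) (hb : b ∈ A) (n : ℕ) : (a * b) ^ n = a ^ n * b ^ n :=
  Commute.mul_pow (hA.comm a ha b hb) n

theorem cm_mul {a b : P} (ha : a ∈ A) (hb : b ∈ A) (g : P) : cm (a * b) g = cm a g * cm b g := by
  rw [cm_mul_left, cm_eq_one_iff.mpr (hA.comm _ (hA.cm_mem ha g) b hb), mul_one]

theorem cm_pow {a : P} (ha : a ∈ A) (g : P) (n : ℕ) : cm (a ^ n) g = cm a g ^ n := by
  induction n with
  | zero => simp [cm]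
  | succ n ih => rw [pow_succ, pow_succ, hA.cm_mul (A.pow_mem ha n) ha, ih]

variable [Finite P] (h : SzY Y)
include h

theorem cm_pow_eq_one {a : P} (ha : a ∈ A) {j : ℕ} (hj : a ^ 2 ^ (j + 1) = 1) (g : P) :
    cm a g ^ 2 ^ j = 1 := by
  rw [← hA.cm_pow ha, cm_eq_one_iff]
  exact h.comm (sq_of_pow hj) g

theorem exists_pow_eq {t : P} (ht : t * t = 1) {j : ℕ} (hj : j ≤ e) : ∃ a ∈ A, a ^ 2 ^ j = t := by
  by_cases ht1 : t = 1
  · exact ⟨1, A.one_mem, by simp [ht1]⟩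
  obtain ⟨a, ha, ha1⟩ := hA.ex
  obtain ⟨k, hkY, hk⟩ := h.trans _ _ ha1 (sq_of_pow (hA.exp a ha)) ht1 ht
  obtain ⟨i, rfl⟩ := Nat.exists_eq_add_of_le' hj
  exact ⟨(k a) ^ 2 ^ i, A.pow_mem (hA.inv k hkY a ha) _,
    by rw [← pow_mul, ← pow_add, ← map_pow, hk]⟩

theorem T_le : h.T ≤ A := fun t ht => by
  obtain ⟨a, ha, e1⟩ := hA.exists_pow_eq h ht (Nat.zero_le e)
  rw [← e1]; exact A.pow_mem ha _

theorem exists_sq {j : ℕ} (hj : j ≤ e) {b : P} (hb : b ∈ A) (hbj : b ^ 2 ^ j = 1) :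
    ∃ a ∈ A, b = a * a := by
  induction j generalizing b with
  | zero => exact ⟨1, A.one_mem, by simpa using hbj⟩
  | succ j ih =>
    obtain ⟨a, ha, e1⟩ := hA.exists_pow_eq h (sq_of_pow hbj) hj
    have ha2 := A.mul_mem ha ha
    obtain ⟨c, hc, e2⟩ := ih (by omega) (A.mul_mem hb (A.inv_mem ha2)) (by
      rw [hA.mul_pow hb (A.inv_mem ha2), inv_pow, ← pow_two_pow_succ', e1, mul_inv_cancel])
    refine ⟨c * a, A.mul_mem hc ha, ?_⟩
    rw [mul_inv_eq_iff_eq_mul.mp e2, ← pow_two, ← pow_two, ← pow_two, hA.mul_pow hc ha]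

/-- Higman's Lemma 2. -/
theorem mem_of_sq {u c : P} (hc : c ∈ A) (hu : u * u = c * c)
    (hd : ∀ b ∈ A, ∃ d ∈ A, cm b u = d ^ 4) : u ∈ A := by
  have key : ∀ i k : ℕ, k + i = e → ∀ b ∈ A, ∃ x ∈ A, x * x * cm x u = b ^ 2 ^ (k + 1) := by
    intro i
    induction i with
    | zero =>
      rintro k rfl b hb
      exact ⟨1, A.one_mem, by rw [hA.exp b hb]; simp [cm]⟩
    | succ i ih =>
      intro k hk b hb
      obtain ⟨d, hd, e1⟩ := hd b hb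
      obtain ⟨y, hy, e2⟩ := ih (k + 1) (by omega) d⁻¹ (A.inv_mem hd)
      have hx := A.pow_mem hb (2 ^ k)
      refine ⟨b ^ 2 ^ k * y, A.mul_mem hx hy, ?_⟩
      rw [hA.cm_mul hx hy, ← pow_two, hA.mul_pow hx hy, hA.cm_pow hb, e1, pow_two y, mul_assoc,
        ← mul_assoc (y * y), hA.comm (y * y) (A.mul_mem hy hy) _ (A.pow_mem (A.pow_mem hd _) _),
        mul_assoc _ (y * y), e2, ← pow_mul, ← pow_mul, inv_pow,
        show 4 * 2 ^ k = 2 ^ (k + 1 + 1) by ring, mul_inv_cancel, mul_one, pow_succ 2]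
  obtain ⟨x, hx, e1⟩ := key e 0 (by omega) c⁻¹ (A.inv_mem hc)
  have : u * x * (u * x) = 1 := by
    rw [mul_sq_eq, cm_eq_one_iff.mpr (hA.comm _ (hA.cm_mem hx u) x hx), mul_one, mul_assoc, e1, hu]
    group
  simpa using A.mul_mem (hA.T_le h this) (A.inv_mem hx)

end AbN

namespace AbN

variable [Finite P] {A : Subgroup P} {m : ℕ} (hA : AbN Y A (m + 1)) (h : SzY Y)
include hA h

theorem exists_pow_four {b : P} (hb : b ∈ A) (hbj : b ^ 2 ^ m = 1) : ∃ d ∈ A, b = d ^ 4 := by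
  obtain ⟨c, hc, rfl⟩ := hA.exists_sq h (Nat.le_succ m) hb hbj
  obtain ⟨d, hd, rfl⟩ := hA.exists_sq h le_rfl hc (by rwa [pow_two_pow_succ'])
  exact ⟨d, hd, by rw [show (4 : ℕ) = 2 + 2 from rfl, pow_add, pow_two]⟩

theorem cm_right_pow {a : P} (ha : a ∈ A) (u v : P) :
    cm a (u * v) ^ 2 ^ m = cm a v ^ 2 ^ m * cm a u ^ 2 ^ m := by
  have h1 := hA.cm_mem ha u
  have h2 := hA.cm_mem ha v
  rw [cm_mul_right, hA.mul_pow (A.mul_mem h2 h1) (hA.cm_mem h1 v), hA.mul_pow h2 h1,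
    hA.cm_pow_eq_one h h1 (hA.cm_pow_eq_one h ha (hA.exp a ha) u), mul_one]

variable (hp : Pair Y) {C : Subgroup P} (hAC : A ≤ C) (hC : Inv Y C) (hI : Irr Y A C)
include hp hAC hC hI

theorem pair : (∀ a ∈ A, ∀ u ∈ C, cm a u ^ 2 ^ m = 1) ∨
    ((∀ a ∈ A, ∀ u ∈ C, cm a u ^ 2 ^ m = 1 → a ^ 2 ^ (m + 1) = 1 ∨ u ∈ A) ∧
      ∀ u ∈ C, ∀ a ∈ A, ∀ b ∈ A, a ^ 2 ^ (m + 1) ≠ 1 → b ^ 2 ^ (m + 1) ≠ 1 →
        cm a u ^ 2 ^ m = a ^ 2 ^ (m + 1) → cm b u ^ 2 ^ m = b ^ 2 ^ (m + 1) →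
        a ^ 2 ^ (m + 1) = b ^ 2 ^ (m + 1)) := by
  have hT : ∀ a ∈ A, ∀ u, cm a u ^ 2 ^ m * cm a u ^ 2 ^ m = 1 := fun a ha u =>
    sq_of_pow (hA.cm_pow_eq_one h ha (hA.exp a ha) u)
  refine hp A A C (fun a => a ^ 2 ^ (m + 1)) (fun a u => cm a u ^ 2 ^ m) hA.inv hA.inv hC hAC hI
    (fun a ha => sq_of_pow (hA.exp a ha)) (fun a ha b hb => hA.mul_pow ha hb _)
    (fun t ht => hA.exists_pow_eq h ht le_rfl) (fun y _ a _ => (map_pow y a _).symm)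
    (fun a ha u _ => hT a ha u) ?_ ?_ ?_ ?_ ?_
  · intro a ha b hb u _
    rw [hA.cm_mul ha hb, hA.mul_pow (hA.cm_mem ha u) (hA.cm_mem hb u)]
  · intro a ha u _ v _
    rw [hA.cm_right_pow h ha, h.comm (hT a ha v)]
  · intro a ha u _ e
    exact hA.cm_pow_eq_one h ha e u
  · intro a ha u hu
    rw [cm_eq_one_iff.mpr (hA.comm a ha u hu), one_pow]
  · intro y _ a _ u _
    rw [← map_cm, ← map_pow]

theorem pair_zero {a u : P} (ha : a ∈ A) (hu : u ∈ C) (ha1 : a ^ 2 ^ (m + 1) ≠ 1) (hu1 : u ∉ A)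
    (h0 : cm a u ^ 2 ^ m = 1) : ∀ b ∈ A, ∀ v ∈ C, cm b v ^ 2 ^ m = 1 :=
  (hA.pair h hp hAC hC hI).resolve_right fun k => (k.1 a ha u hu h0).elim ha1 hu1

variable (hsq : ∀ u ∈ C, u * u ∈ A)
include hsq

/-- For exponent at least 8 a cover acts trivially on `A/A⁴`. -/
theorem cm_pow_of_exp (hCA : ¬ C ≤ A) (hm : m ≠ 0) : ∀ b ∈ A, ∀ v ∈ C, cm b v ^ 2 ^ m = 1 := by
  by_contra hne
  have nd : ∀ a ∈ A, ∀ u ∈ C, u ∉ A → cm a u ^ 2 ^ m = 1 → a ^ 2 ^ (m + 1) = 1 := by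
    intro a ha u hu hu1 h0
    by_contra ha1
    exact hne (hA.pair_zero h hp hAC hC hI ha hu ha1 hu1 h0)
  obtain ⟨a, ha, ha1⟩ := hA.ex
  have key : ∀ u ∈ C, u ∉ A → cm a u ^ 2 ^ m = a ^ 2 ^ (m + 1) := by
    intro u hu hu1
    obtain ⟨b, hb, e1⟩ := hA.exists_sq h le_rfl (hA.cm_mem ha u)
      (hA.cm_pow_eq_one h ha (hA.exp a ha) u)
    have e2 : cm a (u * u) = 1 := cm_eq_one_iff.mpr (hA.comm a ha _ (hsq u hu))
    rw [cm_mul_right, ← pow_two] at e2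
    nth_rewrite 2 [e1] at e2
    rw [hA.cm_mul hb hb, ← pow_two, ← hA.mul_pow (hA.cm_mem ha u) (hA.cm_mem hb u),
      ← hA.cm_mul ha hb] at e2
    obtain ⟨m', rfl⟩ := Nat.exists_eq_succ_of_ne_zero hm
    have e3 := nd _ (A.mul_mem ha hb) u hu hu1 (by rw [pow_succ', pow_mul, e2, one_pow])
    rw [hA.mul_pow ha hb, mul_eq_one_iff_eq_inv,
      inv_eq_of_mul_self (sq_of_pow (hA.exp b hb))] at e3
    rw [e3, e1, ← pow_two_pow_succ']
  obtain ⟨u, hu, hu1⟩ := SetLike.not_le_iff_exists.1 hCA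
  obtain ⟨y, hy, hv1⟩ : ∃ y ∈ Y, u⁻¹ * y u ∉ A := by
    by_contra hc
    push Not at hc
    exact hu1 (h.fix hA.inv hc)
  have hv := C.mul_mem (C.inv_mem hu) (hC y hy u hu)
  have e3 := hA.cm_right_pow h ha u (u⁻¹ * y u)
  rw [key u hu hu1, key _ hv hv1, key _ (C.mul_mem hu hv) (by
    rw [mul_inv_cancel_left]; exact fun e => hu1 (hA.inv.of_apply hy e))] at e3
  exact ha1 (left_eq_mul.mp e3)

/-- A cover containing an element whose square is not in `A²` is abelian. -/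
theorem cover_comm (hcm : ∀ c ∈ C, ∀ y, cm c y ∈ A) {u₀ : P} (hu₀ : u₀ ∈ C)
    (h1 : (u₀ * u₀) ^ 2 ^ (m + 1) ≠ 1) : ∀ u ∈ C, ∀ v ∈ C, u * v = v * u := by
  have hA0 : ∀ a ∈ A, (a * a) ^ 2 ^ (m + 1) = 1 := fun a ha => by
    rw [← pow_two_pow_succ', hA.exp a ha]
  have ha := hA.pair_zero h hp hAC hC hI (hsq u₀ hu₀) hu₀ h1 (fun e => h1 (hA0 _ e))
    (by rw [cm_eq_one_iff.mpr (mul_assoc _ _ _), one_pow])
  have hsqc : ∀ (j : ℕ) (u v : P), u ∈ C → cm (cm u v) u ^ 2 ^ j = 1 →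
      cm (u * u) v ^ 2 ^ j = cm u v ^ 2 ^ (j + 1) := by
    intro j u v hu e
    have h2 := hcm u hu v
    rw [cm_mul_left, hA.mul_pow (A.mul_mem h2 (hA.cm_mem h2 u)) h2, hA.mul_pow h2 (hA.cm_mem h2 u),
      e, mul_one, pow_two_pow_succ]
  have hb : ∀ u ∈ C, ∀ v ∈ C, cm u v ^ 2 ^ (m + 1) = 1 := fun u hu v hv => by
    rw [← hsqc m u v hu (ha _ (hcm u hu v) u hu), ha _ (hsq u hu) v hv]
  have hT : ∀ u ∈ C, (u * u) ^ 2 ^ (m + 1) * (u * u) ^ 2 ^ (m + 1) = 1 := fun u hu =>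
    sq_of_pow (hA.exp _ (hsq u hu))
  have gadd : ∀ u ∈ C, ∀ v ∈ C, (u * v * (u * v)) ^ 2 ^ (m + 1) =
      (u * u) ^ 2 ^ (m + 1) * (v * v) ^ 2 ^ (m + 1) := fun u hu v hv => by
    have h2 := hcm v hv u
    have h3 := A.mul_mem (hsq u hu) (hsq v hv)
    rw [mul_sq_eq, hA.mul_pow (A.mul_mem h3 h2) (hA.cm_mem h2 v), hA.mul_pow h3 h2,
      hA.cm_pow_eq_one h h2 (hA.exp _ h2), hb v hv u hu, mul_one, mul_one,
      hA.mul_pow (hsq u hu) (hsq v hv)]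
  have gsurj : ∀ t : P, t * t = 1 → ∃ u ∈ C, (u * u) ^ 2 ^ (m + 1) = t := fun t ht => by
    by_cases ht1 : t = 1
    · exact ⟨1, C.one_mem, by simp [ht1]⟩
    obtain ⟨k, hk, e⟩ := h.trans _ _ h1 (hT u₀ hu₀) ht1 ht
    exact ⟨k u₀, hC k hk _ hu₀, by rw [← map_mul, ← map_pow, e]⟩
  have hker' : ∀ u ∈ C, (u * u) ^ 2 ^ (m + 1) = 1 → u ∈ A := by
    let K : Subgroup P :=
      { carrier := {u | u ∈ C ∧ (u * u) ^ 2 ^ (m + 1) = 1}
        one_mem' := ⟨C.one_mem, by simp⟩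
        mul_mem' := fun {u v} hu hv => ⟨C.mul_mem hu.1 hv.1, by
          rw [gadd u hu.1 v hv.1, hu.2, hv.2, mul_one]⟩
        inv_mem' := fun {u} hu => ⟨C.inv_mem hu.1, by rw [← mul_inv_rev, inv_pow, hu.2, inv_one]⟩ }
    rcases hI K (fun y hy u hu => ⟨hC y hy u hu.1, by rw [← map_mul, ← map_pow, hu.2, map_one]⟩)
      (fun a ha => ⟨hAC ha, hA0 a ha⟩) (fun u hu => hu.1) with e | e
    · exact fun u hu hu1 => e ▸ (⟨hu, hu1⟩ : u ∈ K)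
    · exact absurd (e.ge hu₀).2 h1
  have hgen : ∀ a ∈ A, ∃ b ∈ C, ∃ w ∈ C, a = b * b * (w * w) := by
    intro a ha
    obtain ⟨w, hw, e1⟩ := gsurj _ (sq_of_pow (hA.exp a ha))
    obtain ⟨b, hb, e2⟩ := hA.exists_sq h le_rfl (A.mul_mem ha (A.inv_mem (hsq w hw)))
      (by rw [hA.mul_pow ha (A.inv_mem (hsq w hw)), inv_pow, e1, mul_inv_cancel])
    exact ⟨b, hAC hb, w, hw, mul_inv_eq_iff_eq_mul.mp e2⟩
  have key : ∀ i j : ℕ, j + i = m + 1 → ∀ u ∈ C, ∀ v ∈ C, cm u v ^ 2 ^ j = 1 := by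
    intro i
    induction i with
    | zero => intro j hj; rw [show j = m + 1 by omega]; exact hb
    | succ i ih =>
      intro j hj
      have ih := ih (j + 1) (by omega)
      have hT' : ∀ u ∈ C, ∀ v ∈ C, cm u v ^ 2 ^ j * cm u v ^ 2 ^ j = 1 := fun u hu v hv =>
        sq_of_pow (ih u hu v hv)
      have hc : ∀ u ∈ C, ∀ v ∈ C, ∀ w, cm (cm u v) w ^ 2 ^ j = 1 := fun u hu v hv w =>
        hA.cm_pow_eq_one h (hcm u hu v) (ih u hu v hv) w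
      have hz : ∀ a ∈ A, ∀ v ∈ C, cm a v ^ 2 ^ j = 1 := by
        intro a ha v hv
        obtain ⟨b, hb, w, hw, rfl⟩ := hgen a ha
        rw [hA.cm_mul (hsq b hb) (hsq w hw),
          hA.mul_pow (hA.cm_mem (hsq b hb) v) (hA.cm_mem (hsq w hw) v),
          hsqc j b v hb (hc b hb v hv b), hsqc j w v hw (hc w hw v hv w), ih b hb v hv,
          ih w hw v hv, mul_one]
      refine (hp C A C (fun u => (u * u) ^ 2 ^ (m + 1)) (fun a u => cm a u ^ 2 ^ j) hC hA.inv hC hAC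
        hI hT gadd gsurj (fun y _ a _ => by rw [← map_mul, ← map_pow]) hT'
        ?_ ?_ ?_ ?_ ?_).resolve_right fun k => (k.1 u₀ hu₀ u₀ hu₀ ?_).elim h1 fun e => h1 (hA0 _ e)
      · intro a ha b hb u hu
        have h2 := hcm a ha u
        rw [cm_mul_left, hA.mul_pow (A.mul_mem h2 (hA.cm_mem h2 b)) (hcm b hb u),
          hA.mul_pow h2 (hA.cm_mem h2 b), hc a ha u hu, mul_one]
      · intro a ha u hu v hv
        have h2 := hcm a ha u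
        rw [cm_mul_right, hA.mul_pow (A.mul_mem (hcm a ha v) h2) (hA.cm_mem h2 v),
          hA.mul_pow (hcm a ha v) h2, hc a ha u hu, mul_one, h.comm (hT' a ha v hv)]
      · intro a ha u hu e
        exact hz a (hker' a ha e) u hu
      · intro a ha u hu
        rw [← cm_inv, inv_pow, hz u hu a ha, inv_one]
      · intro y _ a _ u _
        rw [← map_cm, ← map_pow]
      · rw [cm_eq_one_iff.mpr rfl, one_pow]
  intro u hu v hv
  rw [← cm_eq_one_iff]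
  simpa using key (m + 1) 0 (by omega) u hu v hv

end AbN

end H2.Sz
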