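/- S3776, job C, part 3: Higman's theorem (port of `H69.Higman4`). -/
import Cfsg.Agent.H2.SzC2

set_option autoImplicit false
set_option linter.unusedSectionVars false

universe u

namespace H2.Sz

open H69

variable {P : Type u} [Group P] {Y : Subgroup (MulAut P)}

namespace SzY

variable [Finite P] (h : SzY Y)
include h

theorem exists_abN {A : Subgroup P} (h1 : ∀ a ∈ A, ∀ b ∈ A, a * b = b * a) (h2 : A.Normal)
    (h3 : Inv Y A) (h4 : A ≠ ⊥) : ∃ e, AbN Y A e := by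
  classical
  have hex : ∃ n : ℕ, ∀ a ∈ A, a ^ 2 ^ n = 1 := by
    obtain ⟨n, hn⟩ := IsPGroup.iff_card.mp h.two
    exact ⟨n, fun a _ => by rw [← hn, pow_card_eq_one']⟩
  have h0 : Nat.find hex ≠ 0 := by
    intro e
    have := Nat.find_spec hex
    rw [e] at this
    exact h4 (eq_bot_iff.mpr fun a ha => by simpa using this a ha)
  obtain ⟨e, he⟩ := Nat.exists_eq_succ_of_ne_zero h0
  refine ⟨e, h1, h2, h3, by have := Nat.find_spec hex; rwa [he] at this, ?_⟩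
  have := Nat.find_min hex (m := e) (by omega)
  push Not at this
  exact this

end SzY

namespace AbN

variable [Finite P] {A : Subgroup P} (hA : AbN Y A (0 + 1)) (h : SzY Y)
  (hp : Pair Y) {C : Subgroup P} (hAC : A ≤ C) (hC : Inv Y C) (hI : Irr Y A C) (hCA : ¬ C ≤ A)
include hA h hp hAC hC hI hCA

theorem cm_sq_of_exp_four (hsq : ∀ x : P, x * x ∈ A) (h4 : ∀ u ∈ C, u * u * (u * u) = 1) (x : P) :
    ∀ u ∈ C, cm x u * cm x u = 1 := by
  have hcm : ∀ x y : P, cm x y ∈ A := fun x y => by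
    rw [cm_eq_sq]; exact A.mul_mem (A.mul_mem (hsq _) (hsq _)) (hsq _)
  have hT : ∀ a ∈ A, ∀ y, cm a y * cm a y = 1 := fun a ha y => by
    simpa [pow_two] using hA.cm_pow_eq_one h ha (hA.exp a ha) y
  have hA4 : ∀ a ∈ A, a * a * (a * a) = 1 := fun a ha => by
    have := hA.exp a ha
    rwa [pow_two_pow_succ', pow_one, pow_two] at this
  obtain ⟨u₀, hu₀, hu₀A⟩ := SetLike.not_le_iff_exists.1 hCA
  have nd : ∀ a ∈ A, ∀ u ∈ C, u ∉ A → cm a u = 1 → a * a = 1 := by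
    intro a ha u hu hu1 h0
    by_contra ha1
    have h1 := hA.pair_zero h hp hAC hC hI ha hu (by simpa [pow_two] using ha1) hu1 (by simpa using h0)
    obtain ⟨d, hd, e⟩ := hA.exists_sq h le_rfl (hsq u) (by simpa [pow_two] using h4 u hu)
    exact hu1 (hA.mem_of_sq h hd e fun b hb => ⟨1, A.one_mem, by simpa using h1 b hb u hu⟩)
  have hr : ∀ a ∈ A, ∀ u v, cm a (u * v) = cm a v * cm a u := fun a ha u v => by
    rw [cm_mul_right, h.cm_T (hT a ha u), mul_one]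
  have hβ : ∀ x y u : P, cm (x * y) u * cm (x * y) u = cm x u * cm x u * (cm y u * cm y u) := by
    intro x y u
    rw [cm_mul_left, ← pow_two, hA.mul_pow (A.mul_mem (hcm _ _) (hcm _ _)) (hcm _ _),
      hA.mul_pow (hcm _ _) (hcm _ _), pow_two (cm (cm x u) y), hT _ (hcm _ _), mul_one, pow_two,
      pow_two]
  have hid : ∀ x, ∀ u ∈ C, cm (cm x u) u = cm x u * cm x u := by
    intro x u hu
    have e : cm x (u * u) = 1 := cm_eq_one_iff.mpr (h.comm (h4 u hu) x).symm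
    rw [cm_mul_right, mul_eq_one_iff_inv_eq, inv_eq_of_mul_self (hA4 _ (hcm x u))] at e
    exact e.symm
  have hpol : ∀ x, cm x u₀ * cm x u₀ = 1 → ∀ v ∈ C, cm x v * cm x v = 1 := by
    intro x hx v hv
    have e1 := hid x _ (C.mul_mem hu₀ hv)
    have e2 : cm x (u₀ * v) = cm x v * cm x u₀ := by rw [cm_mul_right, h.cm_T hx, mul_one]
    rw [e2, hA.cm_mul (hcm _ _) (hcm _ _), h.cm_T hx, mul_one, hr _ (hcm _ _), hid x v hv,
      ← pow_two (_ * _), hA.mul_pow (hcm _ _) (hcm _ _), pow_two, pow_two, hx] at e1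
    exact nd _ (hcm x v) u₀ hu₀ hu₀A (mul_left_cancel e1)
  have huniq : ∀ b ∈ A, ∀ b' ∈ A, b * b ≠ 1 → b' * b' ≠ 1 → cm b u₀ = b * b → cm b' u₀ = b' * b' →
      b * b = b' * b' := by
    intro b hb b' hb' h1 h2 e1 e2
    rcases hA.pair h hp hAC hC hI with k | k
    · exact absurd (nd b hb u₀ hu₀ hu₀A (by simpa using k b hb u₀ hu₀)) h1
    · simpa [pow_two] using k.2 u₀ hu₀ b hb b' hb' (by simpa [pow_two] using h1)
        (by simpa [pow_two] using h2) (by simpa [pow_two] using e1) (by simpa [pow_two] using e2)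
  let K : Subgroup P :=
    { carrier := {x | ∀ u ∈ C, cm x u * cm x u = 1}
      one_mem' := fun u _ => by simp [cm]
      mul_mem' := fun {x y} hx hy u hu => by rw [hβ, hx u hu, hy u hu, mul_one]
      inv_mem' := fun {x} hx u hu => by
        have := hβ x x⁻¹ u
        rw [mul_inv_cancel, hx u hu, one_mul] at this
        rw [← this]; simp [cm] }
  have hK : Inv Y K := by
    intro ξ hξ x hx u hu
    obtain ⟨u, rfl⟩ := ξ.surjective u
    rw [← map_cm, ← map_mul, hx u (hC.of_apply hξ hu), map_one]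
  show x ∈ K
  by_contra hx
  refine hx (h.fix hK fun ξ hξ => ?_)
  apply hpol
  have e1 := huniq _ (hcm x u₀) _ (hcm (ξ x) u₀) (fun e => hx (hpol x e))
    (fun e => hx (hK.of_apply hξ (hpol _ e))) (hid _ _ hu₀) (hid _ _ hu₀)
  have e2 := hβ x (x⁻¹ * ξ x) u₀
  rw [mul_inv_cancel_left, ← e1] at e2
  simpa using (left_eq_mul.mp e2)

end AbN

namespace SzY

variable [Finite P] (h : SzY Y)
include h

/-- Higman: squares and commutators are of order at most two. -/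
theorem sq_cm (hp : Pair Y) (hna : ∃ x y : P, x * y ≠ y * x) :
    (∀ x : P, x * x * (x * x) = 1) ∧ ∀ x y : P, cm x y * cm x y = 1 := by
  obtain ⟨A, ⟨hA1, hA2, hA3, hA4⟩, hmax⟩ := exists_maximal_of_wellFoundedGT
    (fun W : Subgroup P => (∀ a ∈ W, ∀ b ∈ W, a * b = b * a) ∧ W.Normal ∧ Inv Y W ∧
      W ≠ ⊥) ⟨h.T, fun a ha b _ => h.comm ha b, h.T_normal, h.T_inv, h.T_ne_bot⟩
  obtain ⟨e, hA⟩ := h.exists_abN hA1 hA2 hA3 hA4
  have hcov : ∀ X : Subgroup P, X.Normal → Inv Y X → A < X →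
      ∃ C : Subgroup P, A ≤ C ∧ C ≤ X ∧ (∀ c ∈ C, ∀ y, cm c y ∈ A) ∧
      (∀ c ∈ C, c * c ∈ A) ∧ Inv Y C ∧ Irr Y A C ∧ ¬ C ≤ A ∧
      ¬ ∀ u ∈ C, ∀ v ∈ C, u * v = v * u := by
    intro X _ hX hlt
    obtain ⟨C, h1, h2, h3, h4, h5, h6, h7⟩ := h.exists_cover hX hA3 hlt
    exact ⟨C, h1, h2, h3, h4, h5, h6, h7, fun hc => h7 (hmax ⟨hc, normal_of_cm h1 h3, h5,
      fun e => hA4 (eq_bot_iff.mpr (e ▸ h1))⟩ h1)⟩
  let Φ : Subgroup P := Subgroup.closure {y | ∃ x : P, y = x * x}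
  have hΦn : Φ.Normal := normal_of_cm le_rfl (fun c _ y => by
    rw [cm_eq_sq]
    exact Φ.mul_mem (Φ.mul_mem (Subgroup.subset_closure ⟨_, rfl⟩) (Subgroup.subset_closure ⟨_, rfl⟩))
      (Subgroup.subset_closure ⟨_, rfl⟩))
  have hX : Inv Y (A ⊔ Φ) := by
    intro ξ hξ
    have : A ⊔ Φ ≤ (A ⊔ Φ).comap ξ.toMonoidHom := by
      refine sup_le (fun a ha => Subgroup.mem_sup_left (hA3 ξ hξ a ha)) ?_
      rw [Subgroup.closure_le]
      rintro _ ⟨x, rfl⟩
      exact Subgroup.mem_sup_right (Subgroup.subset_closure ⟨ξ x, by simp⟩)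
    exact fun x hx => this hx
  have hcent : ∀ c : P, (∀ a ∈ A, c * a = a * c) → (∀ y, cm c y * cm c y = 1) →
      ∀ x ∈ A ⊔ Φ, c * x = x * c := by
    intro c h1 h2
    have : A ⊔ Φ ≤ Subgroup.centralizer {c} := by
      refine sup_le (fun a ha => Subgroup.mem_centralizer_singleton_iff.mpr (h1 a ha).symm) ?_
      rw [Subgroup.closure_le]
      rintro _ ⟨x, rfl⟩
      apply Subgroup.mem_centralizer_singleton_iff.mpr
      rw [eq_comm, ← cm_eq_one_iff, cm_mul_right, h2, h.cm_T (h2 x), mul_one]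
    exact fun x hx => (Subgroup.mem_centralizer_singleton_iff.mp (this hx)).symm
  have hsqA : (∀ C : Subgroup P, A ≤ C → C ≤ A ⊔ Φ → (∀ c ∈ C, ∀ y, cm c y ∈ A) →
      (∀ c ∈ C, c * c ∈ A) → Inv Y C → Irr Y A C → ¬ C ≤ A →
      ∀ u ∈ C, ∀ v ∈ C, u * v = v * u) → ∀ x : P, x * x ∈ A := by
    intro H x
    by_contra hx
    obtain ⟨C, h1, h2, h3, h4, h5, h6, h7, h8⟩ := hcov (A ⊔ Φ) inferInstance hX
      (SetLike.lt_iff_le_and_exists.mpr ⟨le_sup_left, _,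
        Subgroup.mem_sup_right (Subgroup.subset_closure ⟨x, rfl⟩), hx⟩)
    exact h8 (H C h1 h2 h3 h4 h5 h6 h7)
  rcases e with _ | m
  · have h2 : ∀ a ∈ A, a * a = 1 := fun a ha => by simpa [pow_two] using hA.exp a ha
    have := hsqA (fun C h1 hle h3 _ _ _ _ u hu v hv =>
      hcent u (fun a ha => (h.comm (h2 a ha) u).symm) (fun y => h2 _ (h3 u hu y)) v (hle hv))
    refine ⟨fun x => h2 _ (this x), fun x y => h2 _ ?_⟩
    rw [cm_eq_sq]; exact A.mul_mem (A.mul_mem (this _) (this _)) (this _)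
  have hsq : ∀ C : Subgroup P, A ≤ C → (∀ c ∈ C, ∀ y, cm c y ∈ A) →
      (∀ c ∈ C, c * c ∈ A) → Inv Y C → Irr Y A C →
      (¬ ∀ u ∈ C, ∀ v ∈ C, u * v = v * u) → ∀ u ∈ C, (u * u) ^ 2 ^ (m + 1) = 1 := by
    intro C h1 h3 h4 h5 h6 h8 u hu
    by_contra e
    exact h8 (hA.cover_comm h hp h1 h5 h6 h4 h3 hu e)
  have htop : A < ⊤ := by
    obtain ⟨x, y, hxy⟩ := hna
    exact lt_top_iff_ne_top.mpr fun e => hxy (hA1 x (e ▸ trivial) y (e ▸ trivial))
  by_cases hm : m ≠ 0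
  · obtain ⟨C, h1, -, h3, h4, h5, h6, h7, h8⟩ := hcov ⊤ inferInstance (fun _ _ _ _ => trivial) htop
    refine absurd (fun u hu => ?_) h7
    obtain ⟨d, hd, e⟩ := hA.exists_sq h le_rfl (h4 u hu) (hsq C h1 h3 h4 h5 h6 h8 u hu)
    exact hA.mem_of_sq h hd e fun b hb => hA.exists_pow_four h (hA.cm_mem hb u)
      (hA.cm_pow_of_exp h hp h1 h5 h6 h4 h7 hm b hb u hu)
  obtain rfl : m = 0 := by omega
  have hT : ∀ a ∈ A, ∀ y, cm a y * cm a y = 1 := fun a ha y => by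
    simpa [pow_two] using hA.cm_pow_eq_one h ha (hA.exp a ha) y
  have hall : ∀ x : P, x * x ∈ A := by
    apply hsqA
    intro C h1 hle h3 h4 h5 h6 h7
    by_contra h8
    refine h7 (fun u hu => ?_)
    obtain ⟨d, hd, e⟩ := hA.exists_sq h le_rfl (h4 u hu) (hsq C h1 h3 h4 h5 h6 h8 u hu)
    exact hA.mem_of_sq h hd e fun b hb => ⟨1, A.one_mem, by
      rw [one_pow, cm_eq_one_iff]; exact hcent b (fun a ha => hA1 b hb a ha) (hT b hb) u (hle hu)⟩
  have hcm : ∀ x y : P, cm x y ∈ A := fun x y => by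
    rw [cm_eq_sq]; exact A.mul_mem (A.mul_mem (hall _) (hall _)) (hall _)
  let U : Subgroup P :=
    { carrier := {u | (∀ x, cm x u ∈ h.T) ∧ u * u ∈ h.T}
      one_mem' := ⟨fun x => by simp [cm], by simp⟩
      mul_mem' := fun {u v} hu hv => ⟨fun x => by
        rw [cm_mul_right]
        exact h.T.mul_mem (h.T.mul_mem (hv.1 x) (hu.1 x)) (hv.1 _), by
        rw [mul_sq_eq]
        exact h.T.mul_mem (h.T.mul_mem (h.T.mul_mem hu.2 hv.2) (hu.1 v)) (hv.1 _)⟩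
      inv_mem' := fun {u} hu => ⟨fun x => by
        have := h.T_normal.conj_mem _ (h.T.inv_mem (hu.1 x)) u
        simpa [cm, mul_assoc] using this, by
        rw [← mul_inv_rev]; exact h.T.inv_mem hu.2⟩ }
  have hY : Inv Y U := fun ξ hξ u hu => ⟨fun x => by
    obtain ⟨x, rfl⟩ := ξ.surjective x
    rw [← map_cm]; exact h.T_inv ξ hξ _ (hu.1 x), by rw [← map_mul]; exact h.T_inv ξ hξ _ hu.2⟩
  have hAY : A ≤ U := fun a ha => ⟨fun x => by rw [← cm_inv]; exact h.T.inv_mem (hT a ha x), by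
    have := hA.exp a ha
    rwa [pow_two_pow_succ', pow_one, pow_two] at this⟩
  obtain ⟨W, hW1, hW2, hW3, hW4⟩ := h.exists_compl hall hA3 hY
  have hWA : W ≤ A := by
    by_contra hne
    obtain ⟨C, h1, h2, h3, h4, h5, h6, h7, h8⟩ := hcov W
      (normal_of_cm hW2 (fun c _ y => hcm c y)) hW1 (lt_of_le_not_ge hW2 hne)
    have h9 : ∀ u ∈ C, u * u * (u * u) = 1 := fun u hu => by
      simpa [pow_two] using hsq C h1 h3 h4 h5 h6 h8 u hu
    exact h7 fun u hu => hW3 ⟨h2 hu, fun x => hA.cm_sq_of_exp_four h hp h1 h5 h6 h7 hall h9 x u hu, h9 u hu⟩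
  have hYt : ∀ u, u ∈ U := fun u => by
    obtain ⟨w, hw, y, hy, rfl⟩ := hW4 u
    exact U.mul_mem (hAY (hWA hw)) hy
  exact ⟨fun x => (hYt x).2, fun x y => (hYt y).1 x⟩

end SzY

theorem jobC : JobC.{u} := fun _ _ _ _ h hp hna => h.sq_cm hp hna

end H2.Sz
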