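/- S3776: assembly. -/
import Cfsg.Agent.H2.SzC3
import Cfsg.Agent.H21.SzE
import Cfsg.Agent.H3.FrattiniP

set_option autoImplicit false
set_option linter.unusedSectionVars false

universe u

namespace H2.Sz

open H69

variable {P : Type u} [Group P] [Finite P] {Y : Subgroup (MulAut P)}

theorem SzY.center_eq (h : SzY Y) (hna : ∃ x y : P, x * y ≠ y * x)
    (hsq : ∀ x : P, x * x * (x * x) = 1) : Subgroup.center P = h.T := by
  refine le_antisymm (fun z hz => ?_)
    (fun t ht => Subgroup.mem_center_iff.mpr fun y => (h.comm ht y).symm)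
  by_contra hz1
  obtain ⟨x, y, hxy⟩ := hna
  have key : ∀ u : P, ∀ v, u * v = v * u := by
    intro u v
    by_cases hu : u * u = 1
    · exact h.comm hu v
    obtain ⟨k, -, hk⟩ := h.trans _ _ hz1 (hsq z) hu (hsq u)
    have hc : ∀ w, w * k z = k z * w := fun w => by
      obtain ⟨w, rfl⟩ := k.surjective w
      rw [← map_mul, ← map_mul, Subgroup.mem_center_iff.mp hz]
    have h1 : u * (k z)⁻¹ * (u * (k z)⁻¹) = 1 := by
      rw [← pow_two, Commute.mul_pow (Commute.inv_right (hc u)), inv_pow, pow_two, pow_two, ← map_mul,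
        hk, mul_inv_cancel]
    rw [← inv_mul_cancel_right u (k z), mul_assoc, ← hc, ← mul_assoc, h.comm h1, mul_assoc]
  exact hxy (key x y)

theorem final (hD : JobD.{u}) (hG : IsPGroup 2 P) (hna : ¬ IsMulCommutative P)
    (htwo : ∃ x y : P, x ≠ y ∧ x ≠ 1 ∧ x ^ 2 = 1 ∧ y ≠ 1 ∧ y ^ 2 = 1)
    (hY : ∃ Y : Subgroup (MulAut P), Group.IsSolvable Y ∧
      ∀ x y : P, x ≠ 1 → x ^ 2 = 1 → y ≠ 1 → y ^ 2 = 1 → ∃ a ∈ Y, a x = y) :
    commutator P = frattini P ∧ frattini P = Subgroup.center P ∧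
      ∀ x : P, x ∈ Subgroup.center P ↔ x ^ 2 = 1 := by
  obtain ⟨Y, h⟩ := H21.Sz.jobE P hG htwo hY
  have hna' : ∃ x y : P, x * y ≠ y * x := by
    by_contra hc
    push Not at hc
    exact hna ⟨⟨hc⟩⟩
  obtain ⟨h1, h2⟩ := h.sq_cm (hD P Y h) hna'
  have hZ := h.center_eq hna' h1
  have hc : commutator P = h.T := by
    refine le_antisymm (Subgroup.commutator_le.2 fun a _ b _ => ?_) (h.T_le
      (fun a _ x hx => (Subgroup.characteristic_iff_le_comap.1 inferInstance a) hx) fun e => ?_)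
    · simpa [cm, commutatorElement_def, h.mem_T] using h2 a⁻¹ b⁻¹
    · obtain ⟨x, y, hxy⟩ := hna'
      exact hxy (commutatorElement_eq_one_iff_mul_comm.1 (Subgroup.mem_bot.1
        (e ▸ Subgroup.commutator_mem_commutator (Subgroup.mem_top x) (Subgroup.mem_top y))))
  have hF : frattini P = h.T := by
    rw [H3.frattini_eq_pgroup hG, hc, sup_eq_left, Subgroup.closure_le]
    rintro _ ⟨x, rfl⟩
    simpa [pow_two, h.mem_T] using h1 x
  exact ⟨hc.trans hF.symm, hF.trans hZ.symm, fun x => by rw [hZ, h.mem_T, pow_two]⟩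

end H2.Sz
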